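import Mathlib
import Cfsg.Agent.ChevMult.System
import Cfsg.Agent.ChevMult.Data
import Cfsg.Agent.ChevUniversal.Lifts
import Cfsg.Agent.ChevUniversal.SimplyData
import Cfsg.Agent.ChevSteinberg.UniTables

/-!
Over a field with more than four elements every central extension of a tabulated Chevalley group
carries Steinberg's relations (R1), (R2).
-/

set_option autoImplicit false

open scoped commutatorElement

namespace CfsgLib.ChevSteinberg

open Cfsg.Lie CfsgLib.Chevalley CfsgLib.ChevMult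

variable {D : ChevalleyDatum} {S : Sys D} {F : Type*} [Field F] {Γ : Type*} [Group Γ]
  {π : Γ →* GL D.Idx F}

theorem exists_unit_zpow_ne (hK : ∃ s : Finset F, 4 < s.card) {k : ℤ} (h1 : 0 < k.natAbs)
    (h3 : k.natAbs ≤ 3) : ∃ z : Fˣ, z ^ k ≠ 1 := by
  classical
  by_contra hall
  push Not at hall
  obtain ⟨s, hs⟩ := hK
  have hsub : s ⊆ insert 0 (Polynomial.nthRoots k.natAbs (1 : F)).toFinset := by
    intro x _
    by_cases hx : x = 0
    · simp [hx]
    refine Finset.mem_insert_of_mem ?_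
    rw [Multiset.mem_toFinset, Polynomial.mem_nthRoots h1]
    have h := hall (Units.mk0 x hx)
    have h' : (Units.mk0 x hx) ^ k.natAbs = 1 := by
      rcases Int.natAbs_eq k with e | e <;> rw [e] at h
      · rwa [zpow_natCast] at h
      · rwa [zpow_neg, inv_eq_one, zpow_natCast] at h
    simpa using congrArg Units.val h'
  have h4 := (Finset.card_le_card hsub).trans (Finset.card_insert_le _ _)
  have h5 := (Multiset.toFinset_card_le _).trans (Polynomial.card_nthRoots k.natAbs (1 : F))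
  omega

theorem exists_scalar_avoid (hK : ∃ s : Finset F, 4 < s.card) :
    ∃ s : F, s ≠ 0 ∧ 1 + s ≠ 0 ∧ s * s + s + 1 ≠ 0 := by
  classical
  by_contra hall
  push Not at hall
  obtain ⟨s, hs⟩ := hK
  obtain ⟨r, hr⟩ : ∃ r : F, ∀ x : F, x * x + x + 1 = 0 → x = r ∨ x = -1 - r := by
    by_cases h : ∃ r : F, r * r + r + 1 = 0
    · obtain ⟨r, hr⟩ := h
      refine ⟨r, fun x hx => ?_⟩
      have : (x - r) * (x + 1 + r) = 0 := by linear_combination hx - hr
      rcases mul_eq_zero.1 this with e | e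
      · exact Or.inl (sub_eq_zero.1 e)
      · exact Or.inr (by linear_combination e)
    · exact ⟨0, fun x hx => absurd ⟨x, hx⟩ h⟩
  have hsub : s ⊆ {0, -1, r, -1 - r} := by
    intro x _
    simp only [Finset.mem_insert, Finset.mem_singleton]
    by_cases h0 : x = 0
    · exact Or.inl h0
    by_cases h1 : x = -1
    · exact Or.inr (Or.inl h1)
    · rcases hr x (hall x h0 fun e => h1 (by linear_combination e)) with e | e
      · exact Or.inr (Or.inr (Or.inl e))
      · exact Or.inr (Or.inr (Or.inr e))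
  have := (Finset.card_le_card hsub).trans Finset.card_le_four
  omega

section Abel

variable (hrange : π.range = D.group F) (hc : π.ker ≤ Subgroup.center Γ)
include hrange hc

/-- The preimage of a root subgroup reached by the second term of a two-term commutator is
commutative once the field has three elements. -/
theorem abel_of_two_terms (hF : ∃ x : F, x ≠ 0 ∧ x ≠ 1) {a b p r : ℕ} (ha : a < D.nroots)
    (hb : b < D.nroots) (_hp : p < D.nroots) (hr : r < D.nroots) (hba : b ≠ a ∧ b ≠ D.neg a)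
    (har : r ≠ a ∧ r ≠ D.neg a) (hbr : r ≠ b ∧ r ≠ D.neg b) {c d : ℤ}
    (hd : d = 1 ∨ d = -1) (hterms : D.commTerms a b = [(p, c, 1, 1), (r, d, 2, 1)])
    (ea : D.commTerms a r = []) (eb : D.commTerms b r = []) (t u : F) (X Y : Γ)
    (hX : π X = S.xG F r t) (hY : π Y = S.xG F r u) : X * Y = Y * X := by
  have key : ∀ (v w : F), ∃ Z : Γ, Z * Y = Y * Z ∧
      π Z = S.xG F p ((c : F) * (-v) * w) * S.xG F r ((d : F) * (-v) ^ 2 * w) := by
    intro v w
    obtain ⟨A, hA⟩ := lift_mem hrange (S.xG_mem F ha v)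
    obtain ⟨B, hB⟩ := lift_mem hrange (S.xG_mem F hb w)
    have hcomm := S.xG_comm F ha hb hba.1 hba.2 v w
    have hw : S.wG F (D.commWord F a b v w) =
        S.xG F p ((c : F) * (-v) * w) * S.xG F r ((d : F) * (-v) ^ 2 * w) := by
      simp [ChevalleyDatum.commWord, hterms, Sys.wG]
    rw [hw] at hcomm
    refine ⟨⁅B⁻¹, A⁻¹⁆, ?_, ?_⟩
    · have hcom : ∀ (e : ℕ) (x : F), e < D.nroots → r ≠ e → r ≠ D.neg e → D.commTerms e r = [] →
          ∀ {C : Γ}, π C = S.xG F e x → π (Y * C⁻¹ * Y⁻¹) = π C⁻¹ := by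
        intro e x hel h1 h2 h3 C hC
        have := S.xG_comm F hel hr h1 h2 x u
        simp only [ChevalleyDatum.commWord, h3, List.map_nil, Sys.wG, List.prod_nil, mul_one]
          at this
        rw [map_mul, map_mul, map_inv, map_inv, hC, hY]
        calc S.xG F r u * (S.xG F e x)⁻¹ * (S.xG F r u)⁻¹
            = ((S.xG F e x)⁻¹ * S.xG F r u * S.xG F e x) * (S.xG F e x)⁻¹ * (S.xG F r u)⁻¹ := by
              rw [this]
          _ = _ := by group
      have hfix : Y * ⁅B⁻¹, A⁻¹⁆ * Y⁻¹ = ⁅B⁻¹, A⁻¹⁆ := by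
        rw [show Y * ⁅B⁻¹, A⁻¹⁆ * Y⁻¹ = ⁅Y * B⁻¹ * Y⁻¹, Y * A⁻¹ * Y⁻¹⁆ by
          simp only [commutatorElement_def]; group]
        exact Schur.commutator_congr hc (hcom b _ hb hbr.1 hbr.2 eb hB)
          (hcom a _ ha har.1 har.2 ea hA)
      exact (mul_inv_eq_iff_eq_mul.1 hfix).symm
    · rw [map_commutatorElement, map_inv, map_inv, hA, hB, commutatorElement_def, inv_inv, inv_inv]
      calc (S.xG F b w)⁻¹ * (S.xG F a v)⁻¹ * S.xG F b w * S.xG F a v
          = (S.xG F b w)⁻¹ * ((S.xG F a v)⁻¹ * S.xG F b w * S.xG F a v) := by group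
        _ = _ := by rw [hcomm, inv_mul_cancel_left]
  obtain ⟨x, hx0, hx1⟩ := hF
  have hd' : (d : F) * d = 1 := by rcases hd with rfl | rfl <;> simp
  set w : F := (d : F) * t / (x * (x - 1)) with hw
  obtain ⟨Z₁, c1, h1⟩ := key x w
  obtain ⟨Z₂, c2, h2⟩ := key 1 (x * w)
  have hπ : π (Z₂⁻¹ * Z₁) = π X := by
    rw [map_mul, map_inv, h1, h2, show (c : F) * -1 * (x * w) = (c : F) * -x * w by ring, hX]
    calc _ = (S.xG F r ((d : F) * (-1) ^ 2 * (x * w)))⁻¹ * S.xG F r ((d : F) * (-x) ^ 2 * w) := by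
          group
      _ = _ := by
        rw [S.xG_inv, S.xG_add]
        congr 1
        have hx2 : x - 1 ≠ 0 := sub_ne_zero.2 hx1
        rw [hw]
        field_simp
        linear_combination (x - 1) * t * hd'
  have hz : X * (Z₂⁻¹ * Z₁)⁻¹ ∈ π.ker := by
    rw [MonoidHom.mem_ker, map_mul, map_inv, hπ, mul_inv_cancel]
  have hcz : Commute Y (X * (Z₂⁻¹ * Z₁)⁻¹) := Subgroup.mem_center_iff.1 (hc hz) Y
  have hcp : Commute Y (Z₂⁻¹ * Z₁) := by
    refine Commute.mul_right (Commute.inv_right ?_) ?_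
    · exact c2.symm
    · exact c1.symm
  have := (hcz.mul_right hcp).eq
  rw [inv_mul_cancel_right] at this
  exact this.symm

omit hc in
/-- Commutativity of the preimage passes along a reflection. -/
theorem abel_of_reflect {i r : ℕ} (hi : i < D.rank) (hr : r < D.nroots)
    (h : ∀ (t u : F) (X Y : Γ), π X = S.xG F (D.reflectRoot i r) t →
      π Y = S.xG F (D.reflectRoot i r) u → X * Y = Y * X)
    (t u : F) (X Y : Γ) (hX : π X = S.xG F r t) (hY : π Y = S.xG F r u) : X * Y = Y * X := by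
  obtain ⟨g, hg⟩ := lift_mem hrange (S.nG_mem F (S.wf.simple_lt i hi) (1 : F))
  have hn : ∀ v : F, S.nG F (D.simple i) 1 * S.xG F r v * (S.nG F (D.simple i) 1)⁻¹ =
      S.xG F (D.reflectRoot i r) ((S.eta i r : F) * v) := fun v => by
    rw [S.nG_conj_xG F hi hr, mul_inv_cancel_right]
  have := h _ _ (g * X * g⁻¹) (g * Y * g⁻¹) (by rw [map_mul, map_mul, map_inv, hg, hX, hn])
    (by rw [map_mul, map_mul, map_inv, hg, hY, hn])
  have e : g * (X * Y) * g⁻¹ = g * (Y * X) * g⁻¹ := by
    calc g * (X * Y) * g⁻¹ = (g * X * g⁻¹) * (g * Y * g⁻¹) := by group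
      _ = (g * Y * g⁻¹) * (g * X * g⁻¹) := this
      _ = _ := by group
  exact mul_left_cancel (mul_right_cancel e)

end Abel

/-- Central extensions carry the relations, from the tables. -/
theorem exists_stSys_of_tables (hrange : π.range = D.group F) (hc : π.ker ≤ Subgroup.center Γ)
    {scal : List (List ℤ)}
    (hscal : ∀ r : Fin D.nroots, (cop D (scal.getD r []) r).natAbs ∈ [1, 2])
    {steps : List PairStep} {ds : List ℕ} (hsteps : chkSteps D [] steps = true)
    (hexp : chkExp D steps ds = true) (hds : ∀ d ∈ ds, ∀ k : ℤ, k.natAbs = d → ∃ z : Fˣ, z ^ k ≠ 1)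
    (h12 : ∀ k : ℤ, k.natAbs = 1 ∨ k.natAbs = 2 → ∃ z : Fˣ, z ^ k ≠ 1)
    (habel : ∀ r < D.nroots, ∀ (t u : F) (X Y : Γ),
      π X = S.xG F r t → π Y = S.xG F r u → X * Y = Y * X) :
    ∃ T : StSys S F Γ, T.θ = π := by
  let E : Ext S F Γ :=
    { π := π
      range_eq := hrange
      central := hc
      scal := fun r hr => by
        obtain ⟨z, hz⟩ := h12 _ (by simpa using hscal ⟨r, hr⟩)
        exact ⟨fun j => z ^ (scal.getD r []).getD j 0, by
          rw [torusVal_cop]; exact fun e => hz (Units.ext e)⟩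
      abel := habel }
  have hz' : ∀ p ∈ steps, p.n ≠ [] → p.Q = [] → ∃ z : Fˣ, z ^ cop D p.n p.r ≠ 1 := by
    intro p hp hn hQ
    simp only [chkExp, List.all_eq_true, Bool.or_eq_true, List.isEmpty_iff, Bool.not_eq_true',
      decide_eq_true_eq] at hexp
    rcases hexp p hp with (e | e) | e
    · exact absurd e hn
    · rw [hQ] at e; simp at e
    · exact hds _ e _ rfl
  refine ⟨E.stSys (E.rel_all (E.rel_of_steps (fun d hd hall => ?_) steps [] hz' hsteps (by simp))),
    rfl⟩
  obtain ⟨z, hz⟩ := h12 d (Or.inr hd)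
  exact absurd (hall z) hz

theorem abel_of_chkAbel (hrange : π.range = D.group F) (hc : π.ker ≤ Subgroup.center Γ)
    {tbl : List (ℕ × ℕ)} (h : chkAbel D tbl = true) :
    ∀ r < D.nroots, ∀ (t u : F) (X Y : Γ),
      π X = S.xG F r t → π Y = S.xG F r u → X * Y = Y * X := by
  intro r hr
  simp only [chkAbel, List.all_eq_true, List.mem_range, Bool.and_eq_true, Bool.or_eq_true,
    decide_eq_true_eq] at h
  obtain ⟨⟨⟨⟨ha, hb, h1, h2, h3, h4, h5, h6⟩, ht⟩, ea⟩, eb⟩ := h r hr
  rcases ht with e | e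
  · exact abel_of_comm hrange hc ha hb hr ⟨h1, h2⟩ ⟨h3, h4⟩ ⟨h5, h6⟩ (Or.inl rfl) e ea eb
  · exact abel_of_comm hrange hc ha hb hr ⟨h1, h2⟩ ⟨h3, h4⟩ ⟨h5, h6⟩ (Or.inr rfl) e ea eb

theorem abel_B2 {π : Γ →* GL chevB2.Idx F} (hrange : π.range = chevB2.group F)
    (hc : π.ker ≤ Subgroup.center Γ) (hK : ∃ s : Finset F, 4 < s.card) :
    ∀ r < chevB2.nroots, ∀ (t u : F) (X Y : Γ),
      π X = sysB2.xG F r t → π Y = sysB2.xG F r u → X * Y = Y * X := by
  have h3 : ∃ x : F, x ≠ 0 ∧ x ≠ 1 := by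
    obtain ⟨z, hz⟩ := exists_unit_zpow_ne hK (k := 1) (by decide) (by decide)
    exact ⟨z, z.ne_zero, fun e => hz (by rw [zpow_one]; exact Units.ext e)⟩
  have short : ∀ r < chevB2.nroots, ∀ n : List ℤ, cop chevB2 n r = 1 →
      ∀ (t u : F) (X Y : Γ), π X = sysB2.xG F r t → π Y = sysB2.xG F r u → X * Y = Y * X :=
    fun r hr n hn => abel_of_scalars hrange hc hr n hn (exists_scalar_avoid hK)
  have a7 : ∀ (t u : F) (X Y : Γ), π X = sysB2.xG F 7 t → π Y = sysB2.xG F 7 u → X * Y = Y * X :=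
    abel_of_two_terms hrange hc h3 (a := 5) (b := 4) (p := 6) (c := -1) (d := -1) (by decide)
      (by decide) (by decide) (by decide) (by decide) (by decide) (by decide) (Or.inr rfl)
      (by decide +kernel) (by decide +kernel) (by decide +kernel)
  have a4 := abel_of_reflect (S := sysB2) hrange (i := 0) (r := 4) (by decide) (by decide)
    (by rw [show chevB2.reflectRoot 0 4 = 7 by decide +kernel]; exact a7)
  have a3 := abel_of_reflect (S := sysB2) hrange (i := 1) (r := 3) (by decide) (by decide)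
    (by rw [show chevB2.reflectRoot 1 3 = 4 by decide +kernel]; exact a4)
  have a0 := abel_of_reflect (S := sysB2) hrange (i := 0) (r := 0) (by decide) (by decide)
    (by rw [show chevB2.reflectRoot 0 0 = 3 by decide +kernel]; exact a3)
  intro r hr
  have hr' : r < 8 := hr
  interval_cases r
  · exact a0
  · exact short 1 hr [0, -1] (by decide +kernel)
  · exact short 2 hr [0, 1] (by decide +kernel)
  · exact a3
  · exact a4
  · exact short 5 hr [0, -1] (by decide +kernel)
  · exact short 6 hr [0, 1] (by decide +kernel)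
  · exact a7

/-- Simply laced types: every field. -/
theorem exists_stSys_of_simply (P : ChevUniversal.Simply S) (hrange : π.range = D.group F)
    (hc : π.ker ≤ Subgroup.center Γ) : ∃ T : StSys S F Γ, T.θ = π :=
  ChevUniversal.Over.exists_stSys (S := S) (σ := π)
    ⟨P, hc, fun _ hr t => lift_mem hrange (S.xG_mem F hr t)⟩

/-- Over more than four elements every central extension carries the relations. -/
theorem exists_stSys_of_large {D : ChevalleyDatum}
    (hD : D ∈ [chevG2, chevB2, chevD4, chevF4, chevE6, chevE7, chevE8])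
    (hK : ∃ s : Finset F, 4 < s.card) :
    ∃ S : Sys D, Witness S ∧ ∀ {Γ : Type*} [Group Γ] (π : Γ →* GL D.Idx F),
      π.range = D.group F → π.ker ≤ Subgroup.center Γ → ∃ T : StSys S F Γ, T.θ = π := by
  have h12 : ∀ k : ℤ, k.natAbs = 1 ∨ k.natAbs = 2 → ∃ z : Fˣ, z ^ k ≠ 1 :=
    fun k h => exists_unit_zpow_ne hK (by omega) (by omega)
  have hds : ∀ d ∈ [1, 2, 3], ∀ k : ℤ, k.natAbs = d → ∃ z : Fˣ, z ^ k ≠ 1 := by
    intro d hd k hk
    simp only [List.mem_cons, List.not_mem_nil, or_false] at hd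
    exact exists_unit_zpow_ne hK (by omega) (by omega)
  simp only [List.mem_cons, List.not_mem_nil, or_false] at hD
  rcases hD with rfl | rfl | rfl | rfl | rfl | rfl | rfl
  · refine ⟨sysG2, witness_G2, fun π hr hc => exists_stSys_of_tables hr hc uniChkScal_G2
      chkSteps_G2 chkExp_G2 hds h12 fun r hrl => ?_⟩
    have h := chkScal_G2
    simp only [chkScal, List.all_eq_true, List.mem_range, decide_eq_true_eq] at h
    exact abel_of_scalars hr hc hrl _ (h r hrl) (exists_scalar_avoid hK)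
  · exact ⟨sysB2, witness_B2, fun π hr hc => exists_stSys_of_tables hr hc uniChkScal_B2
      uniChkSteps_B2 uniChkExp_B2 (fun d hd => hds d (List.mem_of_mem_take (i := 2) hd)) h12
      (abel_B2 hr hc hK)⟩
  · exact ⟨sysD4, witness_D4, fun π hr hc => exists_stSys_of_tables hr hc uniChkScal_D4
      uniChkSteps_D4 uniChkExp_D4 (fun d hd => hds d (List.mem_of_mem_take (i := 2) hd)) h12
      (abel_of_chkAbel hr hc uniChkAbel_D4)⟩
  · exact ⟨sysF4, witness_F4, fun π hr hc => exists_stSys_of_tables hr hc uniChkScal_F4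
      chkSteps_F4 chkExp_F4 (fun d hd => hds d (List.mem_of_mem_take (i := 1) hd)) h12
      (abel_of_chkAbel hr hc chkAbel_F4)⟩
  · exact ⟨sysE6, witness_E6, fun π => exists_stSys_of_simply ChevUniversal.simply_E6⟩
  · exact ⟨sysE7, witness_E7, fun π => exists_stSys_of_simply ChevUniversal.simply_E7⟩
  · exact ⟨sysE8, witness_E8, fun π => exists_stSys_of_simply ChevUniversal.simply_E8⟩

end CfsgLib.ChevSteinberg
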