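import Mathlib
import Cfsg.Agent.ChevSteinberg.UniExt

/-!
Over the field with four elements every central extension of the Chevalley group of type B2 or D4
carries Steinberg's relations (R1), (R2).
-/

set_option autoImplicit false

open scoped commutatorElement

namespace CfsgLib.ChevSteinberg

open Cfsg.Lie CfsgLib.Chevalley CfsgLib.ChevMult

variable {D : ChevalleyDatum} {S : Sys D} {F : Type*} [Field F] {Γ : Type*} [Group Γ]
  {π : Γ →* GL D.Idx F}

/-- Lifts of two commuting root subgroups commute if a torus element moves the first and fixes the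
second. -/
theorem commute_of_torus (hrange : π.range = D.group F) (hc : π.ker ≤ Subgroup.center Γ)
    {r s : ℕ} (hr : r < D.nroots) (hs : s < D.nroots)
    (himg : ∀ t u : F, S.xG F r t * S.xG F s u = S.xG F s u * S.xG F r t)
    (c : ℕ → Fˣ) (hcr : (torusVal D c r : F) ≠ 1) (hcs : torusVal D c s = 1)
    (t u : F) (X Y : Γ) (hX : π X = S.xG F r t) (hY : π Y = S.xG F s u) : X * Y = Y * X := by
  choose Z hZ using fun v : F => lift_mem hrange (S.xG_mem F hr v)
  let f : F → Γ := fun v => ⁅Z v, Y⁆
  have hker : ∀ v, f v ∈ π.ker := fun v => by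
    rw [MonoidHom.mem_ker, map_commutatorElement, hZ, hY, commutatorElement_eq_one_iff_mul_comm]
    exact himg v u
  have hcen : ∀ v g, g * f v = f v * g := fun v g => Subgroup.mem_center_iff.1 (hc (hker v)) g
  have hadd : ∀ v w, f (v + w) = f w * f v := fun v w => by
    show ⁅_, _⁆ = _
    rw [Schur.commutator_congr hc (g' := Z v * Z w) (h' := Y)
      (by rw [map_mul, hZ, hZ, hZ, S.xG_add]) rfl]
    exact Schur.commutator_mul_left' (hcen w _)
  obtain ⟨g, hg⟩ := lift_mem hrange (S.diagonal_le_group F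
    (show tor D F c ∈ D.diagonalSubgroup F by rw [S.diagonal_eq]; exact ⟨c, rfl⟩))
  set a : F := (torusVal D c r : F)
  have hinv : ∀ v, f (a * v) = f v := fun v => by
    have h1 : g * f v * g⁻¹ = f v := by rw [hcen, mul_inv_cancel_right]
    rw [← h1]
    show ⁅_, _⁆ = _
    rw [← Schur.commutator_congr hc (g := g * Z v * g⁻¹) (h := g * Y * g⁻¹)
      (by rw [map_mul, map_mul, map_inv, hg, hZ, hZ, S.tor_conj F c hr])
      (by rw [map_mul, map_mul, map_inv, hg, hY, S.tor_conj F c hs, hcs, Units.val_one, one_mul])]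
    simp only [f, commutatorElement_def]
    group
  have hone : ∀ v, f v = 1 := by
    intro v
    have ha : a - 1 ≠ 0 := sub_ne_zero.2 hcr
    set w := (a - 1)⁻¹ * v
    have h5 : a * w = v + w := by
      simp only [w]
      field_simp
      ring
    have h6 := hinv w
    rw [h5, hadd] at h6
    exact mul_eq_left.1 h6
  rw [← commutatorElement_eq_one_iff_mul_comm,
    Schur.commutator_congr hc (g' := Z t) (h' := Y) (hX.trans (hZ t).symm) rfl]
  exact hone t

/-- Over the field with four elements the preimages of the root subgroups of B2 are commutative. -/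
theorem abel_B2_four {π : Γ →* GL chevB2.Idx F} (hrange : π.range = chevB2.group F)
    (hc : π.ker ≤ Subgroup.center Γ) (h2 : (2 : F) = 0) (h1 : ∃ z : Fˣ, z ≠ 1) :
    ∀ r < chevB2.nroots, ∀ (t u : F) (X Y : Γ),
      π X = sysB2.xG F r t → π Y = sysB2.xG F r u → X * Y = Y * X := by
  obtain ⟨z, hz⟩ := h1
  have h3 : ∃ x : F, x ≠ 0 ∧ x ≠ 1 := ⟨z, z.ne_zero, fun e => hz (Units.ext e)⟩
  have a7 : ∀ (t u : F) (X Y : Γ), π X = sysB2.xG F 7 t → π Y = sysB2.xG F 7 u → X * Y = Y * X :=
    abel_of_two_terms hrange hc h3 (a := 5) (b := 4) (p := 6) (c := -1) (d := -1) (by decide)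
      (by decide) (by decide) (by decide) (by decide) (by decide) (by decide) (Or.inr rfl)
      (by decide +kernel) (by decide +kernel) (by decide +kernel)
  have h67 : chevB2.commTerms 6 7 = [] := by decide +kernel
  have c67 : ∀ t u : F, sysB2.xG F 6 t * sysB2.xG F 7 u = sysB2.xG F 7 u * sysB2.xG F 6 t := by
    intro t u
    have := sysB2.xG_comm F (r := 6) (s := 7) (by decide) (by decide) (by decide) (by decide) t u
    simp only [ChevalleyDatum.commWord, h67, List.map_nil, Sys.wG, List.prod_nil, mul_one] at this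
    conv_lhs => rw [← this]
    group
  obtain ⟨n, hn6, hn7⟩ : ∃ n : List ℤ, (cop chevB2 n 6 = 1 ∨ cop chevB2 n 6 = -1) ∧
      cop chevB2 n 7 = 0 := ⟨[0, -1], by decide +kernel, by decide +kernel⟩
  have hcr : (torusVal chevB2 (fun j => z ^ n.getD j 0) 6 : F) ≠ 1 := fun e => by
    rw [torusVal_cop, Units.val_eq_one] at e
    rcases hn6 with h | h <;> rw [h] at e
    · exact hz (by simpa using e)
    · exact hz (inv_eq_one.1 (by simpa using e))
  have hcs : torusVal chevB2 (fun j => z ^ n.getD j 0) 7 = 1 := by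
    rw [torusVal_cop, hn7, zpow_zero]
  have l67 := commute_of_torus (S := sysB2) hrange hc (r := 6) (s := 7) (by decide) (by decide)
    c67 _ hcr hcs
  have h54 : chevB2.commTerms 5 4 = [(6, -1, 1, 1), (7, -1, 2, 1)] := by decide +kernel
  have h46 : chevB2.commTerms 4 6 = [] := by decide +kernel
  obtain ⟨k, hk, h56⟩ : ∃ k : ℤ, (k = 2 ∨ k = -2) ∧ chevB2.commTerms 5 6 = [(7, k, 1, 1)] := by
    first
      | exact ⟨2, Or.inl rfl, by decide +kernel⟩
      | exact ⟨-2, Or.inr rfl, by decide +kernel⟩
  have hk0 : (k : F) = 0 := by rcases hk with rfl | rfl <;> simp [h2]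
  have a6 : ∀ (t u : F) (X Y : Γ), π X = sysB2.xG F 6 t → π Y = sysB2.xG F 6 u → X * Y = Y * X := by
    intro t u X Y hX hY
    obtain ⟨A, hA⟩ := lift_mem hrange (sysB2.xG_mem F (r := 5) (by decide) (1 : F))
    obtain ⟨B, hB⟩ := lift_mem hrange (sysB2.xG_mem F (r := 4) (by decide) t)
    have hcomm := sysB2.xG_comm F (r := 5) (s := 4) (by decide) (by decide) (by decide) (by decide)
      1 t
    have hw : sysB2.wG F (chevB2.commWord F 5 4 1 t) =
        sysB2.xG F 6 t * sysB2.xG F 7 (-t) := by
      simp [ChevalleyDatum.commWord, h54, Sys.wG]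
    rw [hw] at hcomm
    set Q := ⁅B⁻¹, A⁻¹⁆
    have hQ : π Q = sysB2.xG F 6 t * sysB2.xG F 7 (-t) := by
      rw [map_commutatorElement, map_inv, map_inv, hA, hB, commutatorElement_def, inv_inv, inv_inv]
      calc _ = (sysB2.xG F 4 t)⁻¹ * ((sysB2.xG F 5 1)⁻¹ * sysB2.xG F 4 t * sysB2.xG F 5 1) := by
            group
        _ = _ := by rw [hcomm, inv_mul_cancel_left]
    have hcom : ∀ (e : ℕ) (x : F), e < chevB2.nroots → 6 ≠ e → 6 ≠ chevB2.neg e →
        sysB2.wG F (chevB2.commWord F e 6 x u) = 1 →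
        ∀ {C : Γ}, π C = sysB2.xG F e x → π (Y * C⁻¹ * Y⁻¹) = π C⁻¹ := by
      intro e x hel e1 e2 e3 C hC
      have := sysB2.xG_comm F hel (show 6 < chevB2.nroots by decide) e1 e2 x u
      rw [e3, mul_one] at this
      rw [map_mul, map_mul, map_inv, map_inv, hC, hY]
      calc sysB2.xG F 6 u * (sysB2.xG F e x)⁻¹ * (sysB2.xG F 6 u)⁻¹
          = ((sysB2.xG F e x)⁻¹ * sysB2.xG F 6 u * sysB2.xG F e x) * (sysB2.xG F e x)⁻¹ *
              (sysB2.xG F 6 u)⁻¹ := by rw [this]
        _ = _ := by group
    have hYQ : Y * Q = Q * Y := by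
      have : Y * Q * Y⁻¹ = Q := by
        rw [show Y * Q * Y⁻¹ = ⁅Y * B⁻¹ * Y⁻¹, Y * A⁻¹ * Y⁻¹⁆ by
          simp only [Q, commutatorElement_def]; group]
        refine Schur.commutator_congr hc ?_ ?_
        · refine hcom 4 t (by decide) (by decide) (by decide) ?_ hB
          simp [ChevalleyDatum.commWord, h46, Sys.wG]
        · refine hcom 5 1 (by decide) (by decide) (by decide) ?_ hA
          simp [ChevalleyDatum.commWord, h56, Sys.wG, hk0, sysB2.xG_zero]
      exact mul_inv_eq_iff_eq_mul.1 this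
    have hZ : π (X⁻¹ * Q) = sysB2.xG F 7 (-t) := by
      rw [map_mul, map_inv, hX, hQ, inv_mul_cancel_left]
    have hYZ : Commute Y (X⁻¹ * Q) := l67 u (-t) Y (X⁻¹ * Q) hY hZ
    have hYX : Commute Y X := by
      have := (hYZ.mul_right (Commute.inv_right hYQ)).inv_right
      simpa using this
    exact hYX.eq.symm
  have a5 := abel_of_reflect (S := sysB2) hrange (i := 1) (r := 5) (by decide) (by decide)
    (by rw [show chevB2.reflectRoot 1 5 = 6 by decide +kernel]; exact a6)
  have a4 := abel_of_reflect (S := sysB2) hrange (i := 0) (r := 4) (by decide) (by decide)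
    (by rw [show chevB2.reflectRoot 0 4 = 7 by decide +kernel]; exact a7)
  have a3 := abel_of_reflect (S := sysB2) hrange (i := 1) (r := 3) (by decide) (by decide)
    (by rw [show chevB2.reflectRoot 1 3 = 4 by decide +kernel]; exact a4)
  have a0 := abel_of_reflect (S := sysB2) hrange (i := 0) (r := 0) (by decide) (by decide)
    (by rw [show chevB2.reflectRoot 0 0 = 3 by decide +kernel]; exact a3)
  have a2 := abel_of_reflect (S := sysB2) hrange (i := 0) (r := 2) (by decide) (by decide)
    (by rw [show chevB2.reflectRoot 0 2 = 5 by decide +kernel]; exact a5)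
  have a1 := abel_of_reflect (S := sysB2) hrange (i := 1) (r := 1) (by decide) (by decide)
    (by rw [show chevB2.reflectRoot 1 1 = 2 by decide +kernel]; exact a2)
  intro r hr
  have hr' : r < 8 := hr
  interval_cases r
  · exact a0
  · exact a1
  · exact a2
  · exact a3
  · exact a4
  · exact a5
  · exact a6
  · exact a7

theorem unit_zpow_ne_four [Fintype F] (hF : Fintype.card F = 4) {k : ℤ}
    (hk : k.natAbs = 1 ∨ k.natAbs = 2) : ∃ z : Fˣ, z ^ k ≠ 1 := by
  classical
  obtain ⟨z, hz⟩ : ∃ z : Fˣ, z ≠ 1 := by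
    have h3 : Fintype.card Fˣ = 3 := by rw [Fintype.card_units, hF]
    exact Fintype.exists_ne_of_one_lt_card (by omega) 1
  have hord : orderOf z = 3 := by
    have h3 : orderOf z ∣ 3 := by
      have := orderOf_dvd_card (x := z)
      rwa [Fintype.card_units, hF] at this
    rcases (Nat.dvd_prime Nat.prime_three).1 h3 with h | h
    · exact absurd (orderOf_eq_one_iff.1 h) hz
    · exact h
  refine ⟨z, fun e => ?_⟩
  have h := orderOf_dvd_iff_zpow_eq_one.2 e
  rw [hord] at h
  omega

theorem two_eq_zero_four [Fintype F] (hF : Fintype.card F = 4) : (2 : F) = 0 := by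
  have : (4 : F) = 0 := by
    have := FiniteField.cast_card_eq_zero F
    rwa [hF] at this
  rcases mul_eq_zero.1 (show (2 : F) * 2 = 0 by linear_combination this) with h | h <;> exact h

theorem exists_stSys_B2_four [Fintype F] (hF : Fintype.card F = 4)
    {π : Γ →* GL chevB2.Idx F} (hrange : π.range = chevB2.group F)
    (hc : π.ker ≤ Subgroup.center Γ) : ∃ T : StSys sysB2 F Γ, T.θ = π :=
  exists_stSys_of_tables hrange hc uniChkScal_B2 uniChkSteps_B2 uniChkExp_B2
    (fun d hd k hk => unit_zpow_ne_four hF (by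
      simp only [List.mem_cons, List.not_mem_nil, or_false] at hd; omega))
    (fun k hk => unit_zpow_ne_four hF hk)
    (abel_B2_four hrange hc (two_eq_zero_four hF) (by
      obtain ⟨z, hz⟩ := unit_zpow_ne_four hF (k := 1) (Or.inl rfl)
      exact ⟨z, by simpa using hz⟩))

theorem exists_stSys_D4_four [Fintype F] (hF : Fintype.card F = 4)
    {π : Γ →* GL chevD4.Idx F} (hrange : π.range = chevD4.group F)
    (hc : π.ker ≤ Subgroup.center Γ) : ∃ T : StSys sysD4 F Γ, T.θ = π :=
  exists_stSys_of_tables hrange hc uniChkScal_D4 uniChkSteps_D4 uniChkExp_D4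
    (fun d hd k hk => unit_zpow_ne_four hF (by
      simp only [List.mem_cons, List.not_mem_nil, or_false] at hd; omega))
    (fun k hk => unit_zpow_ne_four hF hk)
    (abel_of_chkAbel hrange hc uniChkAbel_D4)

end CfsgLib.ChevSteinberg
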