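import Mathlib
import Cfsg.Agent.ChevSteinberg.UniSmall
import Cfsg.Agent.ChevSteinberg.TablesThree

/-!
Over the field with three elements every central extension of the Chevalley group of type D4 carries
Steinberg's relations (R1), (R2).
-/

set_option autoImplicit false

open scoped commutatorElement

namespace CfsgLib.ChevSteinberg

open Cfsg.Lie CfsgLib.Chevalley CfsgLib.ChevMult

section Central

variable {Γ : Type*} [Group Γ]

theorem commutator_zpow_right_of_central {x y : Γ} (h : ⁅x, y⁆ ∈ Subgroup.center Γ) (n : ℤ) :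
    ⁅x, y ^ n⁆ = ⁅x, y⁆ ^ n := by
  have hc : Commute ⁅x, y⁆ y := (Subgroup.mem_center_iff.1 h y).symm
  have e : x * y ^ n * x⁻¹ = ⁅x, y⁆ ^ n * y ^ n := by
    rw [← conj_zpow, show x * y * x⁻¹ = ⁅x, y⁆ * y by simp [commutatorElement_def], hc.mul_zpow]
  rw [commutatorElement_def, e, mul_inv_cancel_right]

theorem commutator_zpow_left_of_central {x y : Γ} (h : ⁅x, y⁆ ∈ Subgroup.center Γ) (n : ℤ) :
    ⁅x ^ n, y⁆ = ⁅x, y⁆ ^ n := by
  have h' : ⁅y, x⁆ ∈ Subgroup.center Γ := by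
    rw [← commutatorElement_inv]
    exact inv_mem h
  rw [← commutatorElement_inv y (x ^ n), commutator_zpow_right_of_central h',
    ← commutatorElement_inv x y, inv_zpow, inv_inv]

end Central

variable {D : ChevalleyDatum} {S : Sys D} {F : Type*} [Field F] {Γ : Type*} [Group Γ]
  {π : Γ →* GL D.Idx F}

theorem xG_intCast (r : ℕ) (m : ℤ) : S.xG F r (m : F) = S.xG F r 1 ^ m := by
  induction m with
  | zero => simp [S.xG_zero]
  | succ k ih => rw [zpow_add_one, ← ih, S.xG_add, Int.cast_add, Int.cast_one]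
  | pred k ih => rw [zpow_sub_one, ← ih, S.xG_inv, S.xG_add, Int.cast_sub, Int.cast_one,
      sub_eq_add_neg]

variable (hrange : π.range = D.group F) (hc : π.ker ≤ Subgroup.center Γ)
include hrange hc

/-- One decomposition of an orthogonal pair. -/
theorem orth_half (hF : ∃ z : Fˣ, z ≠ 1 ∧ z⁻¹ ≠ 1) {r s a b k : ℕ}
    (h : chkHalf D r s a b k = true) {R S₁ B K : Γ} (hR : π R = S.xG F r 1)
    (hS : π S₁ = S.xG F s 1) (hB : π B = S.xG F b 1) (hK : π K = S.xG F k 1) :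
    ⁅R, S₁⁆ ^ (-coefOne D a b) = ⁅B, K⁆ ^ coefOne D r a ∧ ⁅R, S₁⁆ ∈ π.ker ∧ ⁅B, K⁆ ∈ π.ker := by
  simp only [chkHalf, Bool.and_eq_true, decide_eq_true_eq, List.any_eq_true] at h
  obtain ⟨⟨⟨⟨⟨⟨hr, hs, ha, hb, hk⟩, hsr, hsr', hba, hba', har, har', hbr, hbr', hsk, hsk', hkb,
    hkb'⟩, ers, erb, eks, ebk⟩, eab, era⟩, hC, hC'⟩, n, -, hns, hnk⟩ := h
  set C := coefOne D a b
  set C' := coefOne D r a
  have himg : ∀ {x y : ℕ}, x < D.nroots → y < D.nroots → y ≠ x → y ≠ D.neg x →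
      D.commTerms x y = [] →
      ∀ t u : F, S.xG F x t * S.xG F y u = S.xG F y u * S.xG F x t := by
    intro x y hx hy h1 h2 e t u
    have := S.xG_comm F hx hy h1 h2 t u
    simp only [ChevalleyDatum.commWord, e, List.map_nil, Sys.wG, List.prod_nil, mul_one] at this
    conv_lhs => rw [← this]
    group
  have hrs : ⁅R, S₁⁆ ∈ π.ker := by
    rw [MonoidHom.mem_ker, map_commutatorElement, hR, hS, commutatorElement_eq_one_iff_mul_comm]
    exact himg hr hs hsr hsr' ers 1 1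
  have hbk : ⁅B, K⁆ ∈ π.ker := by
    rw [MonoidHom.mem_ker, map_commutatorElement, hB, hK, commutatorElement_eq_one_iff_mul_comm]
    exact himg hb hk hkb hkb' ebk 1 1
  refine ⟨?_, hrs, hbk⟩
  obtain ⟨z, hz, hz'⟩ := hF
  have hcr : (torusVal D (fun j => z ^ n.getD j 0) k : F) ≠ 1 := fun e => by
    rw [torusVal_cop, Units.val_eq_one] at e
    rcases Int.natAbs_eq_iff.1 hnk with h | h <;> rw [h] at e
    · exact hz (by simpa using e)
    · exact hz' (by simpa using e)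
  have hcs : torusVal D (fun j => z ^ n.getD j 0) s = 1 := by
    rw [torusVal_cop, hns, zpow_zero]
  have lks := commute_of_torus (S := S) hrange hc hk hs (himg hk hs hsk hsk' eks) _ hcr hcs
  obtain ⟨A, hA⟩ := lift_mem hrange (S.xG_mem F ha (1 : F))
  set Q := ⁅B⁻¹, A⁻¹⁆
  have hQ : π Q = S.xG F s ((-C : ℤ) : F) := by
    have hcomm := S.xG_comm F ha hb hba hba' 1 1
    simp only [ChevalleyDatum.commWord, eab, List.map_cons, List.map_nil, Sys.wG, List.prod_cons,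
      List.prod_nil, mul_one, pow_one] at hcomm
    rw [map_commutatorElement, map_inv, map_inv, hA, hB, commutatorElement_def, inv_inv, inv_inv]
    calc _ = (S.xG F b 1)⁻¹ * ((S.xG F a 1)⁻¹ * S.xG F b 1 * S.xG F a 1) := by group
      _ = _ := by
        rw [hcomm, inv_mul_cancel_left]
        congr 1
        push_cast
        ring
  have hπC : ∀ m : ℤ, π (K ^ m) = S.xG F k (m : F) := fun m => by
    rw [map_zpow, hK, xG_intCast]
  have hQ1 : π (S₁ ^ (-C)) = π Q := by rw [map_zpow, hS, hQ, xG_intCast]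
  have h1 : ⁅R, S₁⁆ ^ (-C) = ⁅R, Q⁆ := by
    rw [← commutator_zpow_right_of_central (hc hrs)]
    exact Schur.commutator_congr hc rfl hQ1
  have hRA : π (R * A⁻¹ * R⁻¹) = π ((K ^ C')⁻¹ * A⁻¹) := by
    have hcomm := S.xG_comm F hr ha har har' (-1) 1
    simp only [ChevalleyDatum.commWord, era, List.map_cons, List.map_nil, Sys.wG, List.prod_cons,
      List.prod_nil, mul_one, pow_one, neg_neg] at hcomm
    rw [← S.xG_inv, inv_inv] at hcomm
    simp only [map_mul, map_inv, hπC, hR, hA]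
    calc S.xG F r 1 * (S.xG F a 1)⁻¹ * (S.xG F r 1)⁻¹
        = (S.xG F r 1 * S.xG F a 1 * (S.xG F r 1)⁻¹)⁻¹ := by group
      _ = (S.xG F a 1 * S.xG F k (C' : F))⁻¹ := by rw [hcomm]
      _ = _ := mul_inv_rev _ _
  have hRB : π (R * B⁻¹ * R⁻¹) = π B⁻¹ := by
    simp only [map_mul, map_inv, hR, hB]
    have := himg hr hb hbr hbr' erb 1 1
    calc S.xG F r 1 * (S.xG F b 1)⁻¹ * (S.xG F r 1)⁻¹
        = (S.xG F r 1 * S.xG F b 1 * (S.xG F r 1)⁻¹)⁻¹ := by group
      _ = _ := by rw [this, mul_inv_cancel_right]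
  have hKQ : Commute (K ^ C') Q := lks _ _ _ _ (hπC C') hQ
  have h2 : ⁅R, Q⁆ = ⁅B⁻¹, (K ^ C')⁻¹⁆ := by
    have e1 : R * Q * R⁻¹ = ⁅B⁻¹, (K ^ C')⁻¹ * A⁻¹⁆ := by
      rw [show R * Q * R⁻¹ = ⁅R * B⁻¹ * R⁻¹, R * A⁻¹ * R⁻¹⁆ by
        simp only [Q, commutatorElement_def]; group]
      exact Schur.commutator_congr hc hRB hRA
    have e2 : ⁅B⁻¹, (K ^ C')⁻¹ * A⁻¹⁆ = ⁅B⁻¹, (K ^ C')⁻¹⁆ * ((K ^ C')⁻¹ * Q * K ^ C') := by
      simp only [Q, commutatorElement_def]; group
    have e3 : (K ^ C')⁻¹ * Q * K ^ C' = Q := by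
      rw [mul_assoc, ← hKQ.eq, inv_mul_cancel_left]
    rw [commutatorElement_def, e1, e2, e3, mul_inv_cancel_right]
  have hbk' : ⁅B, K⁆ ∈ Subgroup.center Γ := hc hbk
  have h3 : ⁅B⁻¹, (K ^ C')⁻¹⁆ = ⁅B, K⁆ ^ C' := by
    have e1 : ⁅B⁻¹, K⁆ = ⁅B, K⁆ ^ (-1 : ℤ) := by
      rw [← commutator_zpow_left_of_central hbk', zpow_neg_one]
    rw [← zpow_neg, commutator_zpow_right_of_central (by rw [e1]; exact zpow_mem hbk' _), e1,
      ← zpow_mul, neg_one_mul, neg_neg]
  rw [h1, h2, h3]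

/-- The lifts of an orthogonal pair commute. -/
theorem orth_commute (h3 : (3 : F) = 0) (hF : ∃ z : Fˣ, z ≠ 1 ∧ z⁻¹ ≠ 1)
    (hint : ∀ t : F, ∃ m : ℤ, t = (m : F)) {p : OrthStep} (h : chkOrth D p = true) (t u : F)
    (X Y : Γ) (hX : π X = S.xG F p.r t) (hY : π Y = S.xG F p.s u) : X * Y = Y * X := by
  simp only [chkOrth, Bool.and_eq_true, decide_eq_true_eq] at h
  obtain ⟨⟨ha, hb⟩, hcc⟩ := h
  have hlt := ha
  have hlt2 := hb
  simp only [chkHalf, Bool.and_eq_true, decide_eq_true_eq] at hlt hlt2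
  obtain ⟨⟨⟨⟨⟨⟨hr, hs, -, hb1, hb2⟩, -⟩, -⟩, -⟩, hC, hC'⟩, -⟩ := hlt
  obtain ⟨⟨-, hD, hD'⟩, -⟩ := hlt2
  obtain ⟨R, hR⟩ := lift_mem hrange (S.xG_mem F hr (1 : F))
  obtain ⟨S₁, hS⟩ := lift_mem hrange (S.xG_mem F hs (1 : F))
  obtain ⟨B, hB⟩ := lift_mem hrange (S.xG_mem F hb1 (1 : F))
  obtain ⟨K, hK⟩ := lift_mem hrange (S.xG_mem F hb2 (1 : F))
  obtain ⟨e1, hg, -⟩ := orth_half hrange hc hF ha hR hS hB hK
  obtain ⟨e2, -, -⟩ := orth_half hrange hc hF hb hR hS hK hB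
  rw [← commutatorElement_inv B K] at e2
  set g := ⁅R, S₁⁆
  set C := coefOne D p.a p.b
  set C' := coefOne D p.r p.a
  set E₁ := coefOne D p.a2 p.b2
  set E' := coefOne D p.r p.a2
  have sq : ∀ {x : ℤ}, x.natAbs = 1 → x * x = 1 := fun {x} hx => by
    rw [← Int.natAbs_mul_self' x, hx]; rfl
  have f1 : g ^ (-(C * C')) = ⁅B, K⁆ := by
    rw [show -(C * C') = -C * C' by ring, zpow_mul, e1, ← zpow_mul, sq hC', zpow_one]
  have f2 : g ^ (E₁ * E') = ⁅B, K⁆ := by
    rw [show E₁ * E' = -E₁ * -E' by ring, zpow_mul, e2, ← zpow_mul, inv_zpow', mul_neg,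
      neg_neg, sq hD', zpow_one]
  have g2 : g ^ (2 : ℤ) = 1 := by
    have h := f1.trans f2.symm
    rw [← hcc, zpow_neg, inv_eq_iff_mul_eq_one, ← zpow_add] at h
    have h' := congrArg (fun x => x ^ (C * C')) h
    simp only [one_zpow] at h'
    rw [← zpow_mul, show (C * C' + C * C') * (C * C') = 2 * ((C * C) * (C' * C')) by ring, sq hC,
      sq hC'] at h'
    simpa using h'
  have g3 : g ^ (3 : ℤ) = 1 := by
    rw [← commutator_zpow_right_of_central (hc hg), commutatorElement_eq_one_iff_mul_comm]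
    refine Subgroup.mem_center_iff.1 (hc ?_) R
    rw [MonoidHom.mem_ker, map_zpow, hS, ← xG_intCast, Int.cast_ofNat, h3, S.xG_zero]
  have g1 : g = 1 := by
    have : g ^ (3 : ℤ) * (g ^ (2 : ℤ))⁻¹ = g := by
      rw [← zpow_neg, ← zpow_add]; norm_num
    rw [← this, g2, g3, inv_one, mul_one]
  obtain ⟨m, rfl⟩ := hint t
  obtain ⟨l, rfl⟩ := hint u
  have hcomm : Commute (R ^ m) (S₁ ^ l) :=
    (Commute.zpow_left (show Commute R S₁ from commutatorElement_eq_one_iff_mul_comm.1 g1) m).zpow_right l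
  rw [← commutatorElement_eq_one_iff_mul_comm, Schur.commutator_congr hc (g' := R ^ m)
    (h' := S₁ ^ l) (by rw [hX, map_zpow, hR, xG_intCast])
    (by rw [hY, map_zpow, hS, xG_intCast]), commutatorElement_eq_one_iff_mul_comm]
  exact hcomm.eq

omit hrange hc in
theorem exists_stSys_D4_three [Fintype F] (hF : Fintype.card F = 3)
    {π : Γ →* GL chevD4.Idx F} (hrange : π.range = chevD4.group F)
    (hc : π.ker ≤ Subgroup.center Γ) : ∃ T : StSys sysD4 F Γ, T.θ = π := by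
  classical
  have h3 : (3 : F) = 0 := by
    have := FiniteField.cast_card_eq_zero F
    rwa [hF] at this
  have h2 : (2 : F) ≠ 0 := fun e => one_ne_zero (show (1 : F) = 0 by linear_combination h3 - e)
  have hm : (-1 : F) ≠ 1 := fun e => h2 (by linear_combination -e)
  have hz : (-1 : Fˣ) ≠ 1 := fun e => hm (by simpa using congrArg Units.val e)
  have hF' : ∃ z : Fˣ, z ≠ 1 ∧ z⁻¹ ≠ 1 := ⟨-1, hz, fun e => hz (inv_eq_one.1 e)⟩
  have hint : ∀ t : F, ∃ m : ℤ, t = (m : F) := by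
    intro t
    have hcard : ({0, 1, -1} : Finset F).card = 3 := by
      rw [Finset.card_eq_three]
      exact ⟨0, 1, -1, zero_ne_one, (neg_ne_zero.2 one_ne_zero).symm, hm.symm, rfl⟩
    have hu : ({0, 1, -1} : Finset F) = Finset.univ :=
      Finset.eq_univ_of_card _ (hcard.trans hF.symm)
    have ht : t ∈ ({0, 1, -1} : Finset F) := hu ▸ Finset.mem_univ t
    simp only [Finset.mem_insert, Finset.mem_singleton] at ht
    rcases ht with rfl | rfl | rfl
    · exact ⟨0, by simp⟩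
    · exact ⟨1, by simp⟩
    · exact ⟨-1, by simp⟩
  have one_pow : ∀ k : ℤ, k.natAbs = 1 → ((-1 : Fˣ)) ^ k ≠ 1 := by
    intro k hk
    rcases Int.natAbs_eq_iff.1 hk with e | e <;> rw [e]
    · simpa using hz
    · simpa using hz
  let E : Ext sysD4 F Γ :=
    { π := π
      range_eq := hrange
      central := hc
      scal := fun r hr => ⟨fun j => (-1 : Fˣ) ^ (uniScalD4.getD r []).getD j 0, by
          rw [torusVal_cop]
          exact fun e => one_pow _ (threeChkScal_D4 ⟨r, hr⟩) (Units.ext e)⟩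
      abel := abel_of_chkAbel hrange hc uniChkAbel_D4 }
  have hK : ∀ x ∈ orthPairsD4, E.Rel x.1 x.2 := by
    intro x hx t u
    simp only [orthPairsD4, List.mem_append, List.mem_map] at hx
    have key : ∀ p ∈ orthD4, ∀ v w : F, E.y p.r v * E.y p.s w = E.y p.s w * E.y p.r v ∧
        chevD4.commTerms p.r p.s = [] ∧ chevD4.commTerms p.s p.r = [] := by
      intro p hp v w
      obtain ⟨i, hi, rfl⟩ := List.getElem_of_mem hp
      have h := chkOrth_D4 ⟨i, hi⟩
      exact ⟨orth_commute (S := sysD4) hrange hc h3 hF' hint h v w _ _ (E.π_y' _ v) (E.π_y' _ w),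
        chkOrthEmpty_D4 ⟨i, hi⟩⟩
    rcases hx with ⟨p, hp, rfl⟩ | ⟨p, hp, rfl⟩
    · obtain ⟨e, e1, -⟩ := key p hp t u
      simp only [Ext.word, ChevalleyDatum.commWord, e1, List.map_nil, List.prod_nil, mul_one]
      rw [mul_assoc, ← e, inv_mul_cancel_left]
    · obtain ⟨e, -, e1⟩ := key p hp u t
      simp only [Ext.word, ChevalleyDatum.commWord, e1, List.map_nil, List.prod_nil, mul_one]
      rw [mul_assoc, e, inv_mul_cancel_left]
  have hexp : ∀ p ∈ threeStepsD4, p.n ≠ [] → p.Q = [] → ∃ z : Fˣ, z ^ cop chevD4 p.n p.r ≠ 1 := by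
    intro p hp hn hQ
    have h := threeChkExp_D4
    simp only [chkExp, List.all_eq_true, Bool.or_eq_true, List.isEmpty_iff, Bool.not_eq_true',
      decide_eq_true_eq, List.mem_singleton] at h
    rcases h p hp with (e | e) | e
    · exact absurd e hn
    · rw [hQ] at e; simp at e
    · exact ⟨-1, one_pow _ e⟩
  exact ⟨E.stSys (E.rel_all (E.rel_of_steps (fun _ _ _ => h2) threeStepsD4 orthPairsD4 hexp
    threeChkSteps_D4 hK)), rfl⟩

end CfsgLib.ChevSteinberg
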