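import Mathlib
import Cfsg.Agent.ChevSteinberg.UniSmall
import Cfsg.Agent.ChevSteinberg.OrthThree
import Cfsg.Agent.Schur.StemSylow
import Cfsg.Agent.SteinbergChar.Degree

/-!
Over three elements the kernel of a perfect central extension of the Chevalley group of type B2 has
no element of order three: the preimage of the unipotent subgroup splits.
-/

set_option autoImplicit false

open scoped commutatorElement Pointwise

namespace CfsgLib.ChevSteinberg

open Cfsg.Lie CfsgLib.Chevalley CfsgLib.ChevMult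

section Groups

variable {Γ : Type*} [Group Γ]

theorem commutator_inv_inv_of_commute {x y : Γ} (hx : Commute ⁅x, y⁆ x) (hy : Commute ⁅x, y⁆ y) :
    ⁅x⁻¹, y⁻¹⁆ = ⁅x, y⁆ := by
  have h : x * y = ⁅x, y⁆ * (y * x) := by simp [commutatorElement_def]
  calc ⁅x⁻¹, y⁻¹⁆ = (y * x)⁻¹ * (x * y) := by simp [commutatorElement_def, mul_assoc]
    _ = (y * x)⁻¹ * (⁅x, y⁆ * (y * x)) := by rw [h]
    _ = _ := by rw [(hy.mul_right hx).eq, inv_mul_cancel_left]

theorem commutator_mul_right_of_commute {x y z : Γ} (h : Commute x z) : ⁅x, y * z⁆ = ⁅x, y⁆ := by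
  calc ⁅x, y * z⁆ = x * y * (z * x⁻¹) * z⁻¹ * y⁻¹ := by simp [commutatorElement_def, mul_assoc]
    _ = _ := by rw [h.inv_left.symm.eq]; simp [commutatorElement_def, mul_assoc]

theorem le_normalizer_zpowers [Finite Γ] {A : Subgroup Γ} {s : Set Γ} (hA : A = Subgroup.closure s)
    {g : Γ} (h : ∀ x ∈ s, g * x * g⁻¹ ∈ A) :
    Subgroup.zpowers g ≤ Subgroup.normalizer (A : Set Γ) := by
  rw [Subgroup.zpowers_le]
  have hle : A.map (MulAut.conj g).toMonoidHom ≤ A := by
    conv_lhs => rw [hA]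
    rw [MonoidHom.map_closure, Subgroup.closure_le]
    rintro _ ⟨x, hx, rfl⟩
    exact h x hx
  have heq : A.map (MulAut.conj g).toMonoidHom = A :=
    Subgroup.eq_of_le_of_card_ge hle
      (Subgroup.card_map_of_injective (MulAut.conj g).injective).ge
  rw [Subgroup.mem_normalizer_iff]
  intro x
  constructor
  · intro hx
    rw [← heq]
    exact ⟨x, hx, rfl⟩
  · intro hx
    rw [← heq] at hx
    obtain ⟨y, hy, e⟩ := hx
    have : y = x := (MulAut.conj g).injective e
    exact this ▸ hy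

theorem natCard_sup_le [Finite Γ] {A B : Subgroup Γ}
    (h : B ≤ Subgroup.normalizer (A : Set Γ)) :
    Nat.card ↥(A ⊔ B) ≤ Nat.card A * Nat.card B := by
  rw [sup_comm, mul_comm]
  calc Nat.card ↥(B ⊔ A) = Nat.card ((B ⊔ A : Subgroup Γ) : Set Γ) := rfl
    _ = Nat.card ((B : Set Γ) * (A : Set Γ) : Set Γ) := by
      rw [Subgroup.coe_mul_of_left_le_normalizer_right B A h]
    _ ≤ _ := Set.natCard_mul_le

end Groups

variable {F : Type*} [Field F] [Fintype F] (hF : Fintype.card F = 3) {Γ : Type*} [Group Γ]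
  [Finite Γ] {π : Γ →* GL chevB2.Idx F} (hrange : π.range = chevB2.group F)
  (hc : π.ker ≤ Subgroup.center Γ)
include hF

omit [Finite Γ] in
theorem exists_intCast_mul {e : F} (he : e ≠ 0) (t : F) : ∃ m : ℤ, t = (m : F) * e := by
  classical
  have h3 : (3 : F) = 0 := by
    have := FiniteField.cast_card_eq_zero F
    rwa [hF] at this
  have hm : (-1 : F) ≠ 1 := fun h => one_ne_zero (show (1 : F) = 0 by linear_combination h + h3)
  have hcard : ({0, 1, -1} : Finset F).card = 3 := by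
    rw [Finset.card_eq_three]
    exact ⟨0, 1, -1, zero_ne_one, (neg_ne_zero.2 one_ne_zero).symm, hm.symm, rfl⟩
  have hu : ({0, 1, -1} : Finset F) = Finset.univ :=
    Finset.eq_univ_of_card _ (hcard.trans hF.symm)
  have ht : t / e ∈ ({0, 1, -1} : Finset F) := hu ▸ Finset.mem_univ _
  simp only [Finset.mem_insert, Finset.mem_singleton] at ht
  rcases ht with h | h | h
  · exact ⟨0, by rw [div_eq_iff he] at h; simp [h]⟩
  · exact ⟨1, by rw [div_eq_iff he] at h; simp [h]⟩
  · exact ⟨-1, by rw [div_eq_iff he] at h; simp [h]⟩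

include hrange hc in
/-- The preimage of the unipotent subgroup has a complement of the kernel. -/
theorem exists_split_unipotent : ∃ V : Subgroup Γ, V ⊓ π.ker = ⊥ ∧ V.map π = chevB2.posUnipotent F := by
  classical
  set S := sysB2
  have h3 : (3 : F) = 0 := by
    have := FiniteField.cast_card_eq_zero F
    rwa [hF] at this
  have hm : (-1 : F) ≠ 1 := fun h => one_ne_zero (show (1 : F) = 0 by linear_combination h + h3)
  have hz : (-1 : Fˣ) ≠ 1 := fun e => hm (by simpa using congrArg Units.val e)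
  have hpow : ∀ (r : ℕ) (e : F) (m : ℤ), S.xG F r ((m : F) * e) = S.xG F r e ^ m := by
    intro r e m
    induction m with
    | zero => simp [S.xG_zero]
    | succ k ih => rw [zpow_add_one, ← ih, S.xG_add, Int.cast_add, Int.cast_one, add_mul, one_mul]
    | pred k ih => rw [zpow_sub_one, ← ih, S.xG_inv, S.xG_add, Int.cast_sub, Int.cast_one, sub_mul,
        one_mul, sub_eq_add_neg]
  have hgen : ∀ {r : ℕ} {e : F}, e ≠ 0 → ∀ {Z : Γ}, π Z = S.xG F r e → ∀ t : F,
      ∃ m : ℤ, π (Z ^ m) = S.xG F r t := fun {r e} he Z hZ t => by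
    obtain ⟨m, rfl⟩ := exists_intCast_mul hF he t
    exact ⟨m, by rw [map_zpow, hZ, hpow]⟩
  have hcube : ∀ {r : ℕ} {e : F} {Z : Γ}, π Z = S.xG F r e → Z ^ 3 ∈ Subgroup.center Γ :=
    fun {r e Z} hZ => hc (by
      rw [MonoidHom.mem_ker, map_pow, hZ, ← zpow_natCast, ← hpow]
      simp [h3, S.xG_zero])
  -- the torus element inverting the short roots
  set c : ℕ → Fˣ := fun j => (-1 : Fˣ) ^ ([0, 1] : List ℤ).getD j 0
  have hc4 : torusVal chevB2 c 4 = 1 := by
    rw [torusVal_cop, show cop chevB2 [0, 1] 4 = 2 by decide +kernel]; simp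
  have hc7 : torusVal chevB2 c 7 = 1 := by
    rw [torusVal_cop, show cop chevB2 [0, 1] 7 = 0 by decide +kernel]; simp
  have hc5 : torusVal chevB2 c 5 = -1 := by
    rw [torusVal_cop, show cop chevB2 [0, 1] 5 = -1 by decide +kernel]; simp
  have hc6 : torusVal chevB2 c 6 = -1 := by
    rw [torusVal_cop, show cop chevB2 [0, 1] 6 = 1 by decide +kernel]; simp
  have hne5 : (torusVal chevB2 c 5 : F) ≠ 1 := by rw [hc5]; simpa using hm
  have hne6 : (torusVal chevB2 c 6 : F) ≠ 1 := by rw [hc6]; simpa using hm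
  obtain ⟨h, hh⟩ := lift_mem hrange (S.diagonal_le_group F
    (show tor chevB2 F c ∈ chevB2.diagonalSubgroup F by rw [S.diagonal_eq]; exact ⟨c, rfl⟩))
  have htc : ∀ {r : ℕ}, r < chevB2.nroots → ∀ t, π h * S.xG F r t * (π h)⁻¹ =
      S.xG F r ((torusVal chevB2 c r : F) * t) := fun {r} hr t => by
    rw [hh]; exact S.tor_conj F c hr t
  have himg : ∀ {x y : ℕ}, x < chevB2.nroots → y < chevB2.nroots → y ≠ x → y ≠ chevB2.neg x →
      chevB2.commTerms x y = [] →
      ∀ t u : F, S.xG F x t * S.xG F y u = S.xG F y u * S.xG F x t := by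
    intro x y hx hy h1 h2 e t u
    have := S.xG_comm F hx hy h1 h2 t u
    simp only [ChevalleyDatum.commWord, e, List.map_nil, Sys.wG, List.prod_nil, mul_one] at this
    conv_lhs => rw [← this]
    group
  obtain ⟨Z5, hZ5⟩ := lift_mem hrange (S.xG_mem F (r := 5) (by decide) (1 : F))
  obtain ⟨Z6, hZ6⟩ := lift_mem hrange (S.xG_mem F (r := 6) (by decide) (1 : F))
  set Q := ⁅Z6, Z5⁆ with hQdef
  have hQ : π Q = S.xG F 7 1 := by
    have hcomm := S.xG_comm F (r := 6) (s := 5) (by decide) (by decide) (by decide) (by decide)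
      (-1 : F) 1
    simp only [ChevalleyDatum.commWord, show chevB2.commTerms 6 5 = [(7, -2, 1, 1)] by decide +kernel,
      List.map_cons, List.map_nil, Sys.wG, List.prod_cons, List.prod_nil, mul_one, pow_one, neg_neg,
      ← S.xG_inv, inv_inv] at hcomm
    rw [hQdef, map_commutatorElement, hZ6, hZ5, commutatorElement_def, hcomm,
      show ((-2 : ℤ) : F) = 1 by push_cast; linear_combination -h3]
    rw [himg (x := 5) (y := 7) (by decide) (by decide) (by decide) (by decide) (by decide +kernel),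
      mul_inv_cancel_right]
  -- short root lifts commute with long root lifts
  have l57 := commute_of_torus (S := S) hrange hc (r := 5) (s := 7) (by decide) (by decide)
    (himg (by decide) (by decide) (by decide) (by decide) (by decide +kernel)) c hne5 hc7
  have l67 := commute_of_torus (S := S) hrange hc (r := 6) (s := 7) (by decide) (by decide)
    (himg (by decide) (by decide) (by decide) (by decide) (by decide +kernel)) c hne6 hc7
  have hQ5 : Commute Q Z5 := Commute.symm (l57 1 1 Z5 Q hZ5 hQ)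
  have hQ6 : Commute Q Z6 := Commute.symm (l67 1 1 Z6 Q hZ6 hQ)
  have hQ3 : Q ^ 3 = 1 := by
    have e : Z6 * Z5 ^ 3 * Z6⁻¹ = Q ^ 3 * Z5 ^ 3 := by
      rw [← conj_pow, show Z6 * Z5 * Z6⁻¹ = Q * Z5 by simp [hQdef, commutatorElement_def],
        hQ5.mul_pow]
    rw [Subgroup.mem_center_iff.1 (hcube hZ5) Z6, mul_inv_cancel_right] at e
    exact mul_eq_right.1 e.symm
  have hhQ : h * Q * h⁻¹ = Q := by
    rw [show h * Q * h⁻¹ = ⁅h * Z6 * h⁻¹, h * Z5 * h⁻¹⁆ by
      simp only [hQdef, commutatorElement_def]; group]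
    refine (Schur.commutator_congr hc (g' := Z6⁻¹) (h' := Z5⁻¹) ?_ ?_).trans
      (commutator_inv_inv_of_commute hQ6 hQ5)
    · rw [map_mul, map_mul, map_inv, map_inv, hZ6, htc (by decide), hc6, S.xG_inv]; simp
    · rw [map_mul, map_mul, map_inv, map_inv, hZ5, htc (by decide), hc5, S.xG_inv]; simp
  -- canonical lifts of the short root elements
  have hshort : ∀ {r : ℕ} {Z : Γ}, r < chevB2.nroots → torusVal chevB2 c r = -1 →
      π Z = S.xG F r 1 → π ⁅h, Z⁆ = S.xG F r 1 ∧ Commute ⁅h, Z⁆ Z ∧ ⁅h, Z⁆ ^ 3 = 1 := by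
    intro r Z hr hcr hZ
    have h1 : π ⁅h, Z⁆ = S.xG F r 1 := by
      rw [map_commutatorElement, hZ, commutatorElement_def, htc hr, hcr, S.xG_inv, S.xG_add]
      congr 1
      simp only [Units.val_neg, Units.val_one]
      linear_combination -h3
    have h2 : Commute ⁅h, Z⁆ Z := by
      have hk : Z⁻¹ * ⁅h, Z⁆ ∈ Subgroup.center Γ :=
        hc (by rw [MonoidHom.mem_ker, map_mul, map_inv, h1, hZ, inv_mul_cancel])
      have hk' : Commute (Z⁻¹ * ⁅h, Z⁆) Z := (Subgroup.mem_center_iff.1 hk Z).symm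
      have := (Commute.refl Z).mul_left hk'
      rwa [mul_inv_cancel_left] at this
    refine ⟨h1, h2, ?_⟩
    have e : h * Z ^ 3 * h⁻¹ = ⁅h, Z⁆ ^ 3 * Z ^ 3 := by
      rw [← conj_pow, show h * Z * h⁻¹ = ⁅h, Z⁆ * Z by simp [commutatorElement_def], h2.mul_pow]
    rw [Subgroup.mem_center_iff.1 (hcube hZ) h, mul_inv_cancel_right] at e
    exact mul_eq_right.1 e.symm
  obtain ⟨hw5, -, h53⟩ := hshort (r := 5) (by decide) hc5 hZ5
  obtain ⟨hw6, h66, h63⟩ := hshort (r := 6) (by decide) hc6 hZ6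
  set w5 := ⁅h, Z5⁆ with hw5def
  set w6 := ⁅h, Z6⁆ with hw6def
  have hQw5 : Commute w5 Q := l57 1 1 w5 Q hw5 hQ
  have hQw6 : Commute w6 Q := l67 1 1 w6 Q hw6 hQ
  have h56 : w5 * w6 * w5⁻¹ = Q⁻¹ * w6 := by
    rw [show Q⁻¹ = ⁅w5, w6⁆ by
      rw [hQdef, commutatorElement_inv]
      exact Schur.commutator_congr hc (hZ5.trans hw5.symm) (hZ6.trans hw6.symm)]
    simp [commutatorElement_def]
  -- action of the lifts of the other long root
  have h45 : chevB2.commTerms 4 5 = [(6, 1, 1, 1), (7, -1, 1, 2)] := by decide +kernel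
  have hconj : ∀ (t : F) (L : Γ), π L = S.xG F 4 t →
      L * Q * L⁻¹ = Q ∧ L * w6 * L⁻¹ = w6 ∧
        ∃ i j : ℤ, L * w5 * L⁻¹ = w5 * (Q ^ j * w6 ^ i) := by
    intro t L hL
    have hL6 : π (L * Z6 * L⁻¹) = π Z6 := by
      rw [map_mul, map_mul, map_inv, hL, hZ6,
        himg (x := 4) (y := 6) (by decide) (by decide) (by decide) (by decide) (by decide +kernel),
        mul_inv_cancel_right]
    have hLh : π (L * h * L⁻¹) = π h := by
      have e : π h * π L * (π h)⁻¹ = π L := by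
        rw [hL, htc (by decide), hc4, Units.val_one, one_mul]
      rw [map_mul, map_mul, map_inv, mul_inv_eq_iff_eq_mul]
      exact (mul_inv_eq_iff_eq_mul.1 e).symm
    obtain ⟨a, b, hab⟩ : ∃ a b : F, π (L * Z5 * L⁻¹) = π Z5 * (S.xG F 6 a * S.xG F 7 b) := by
      have hcomm := S.xG_comm F (r := 4) (s := 5) (by decide) (by decide) (by decide) (by decide)
        (-t) 1
      simp only [ChevalleyDatum.commWord, h45, List.map_cons, List.map_nil, Sys.wG, List.prod_cons,
        List.prod_nil, mul_one, ← S.xG_inv, inv_inv] at hcomm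
      rw [map_mul, map_mul, map_inv, hL, hZ5, hcomm]
      exact ⟨_, _, rfl⟩
    obtain ⟨i, hi⟩ := hgen one_ne_zero hZ6 a
    obtain ⟨j, hj⟩ := hgen one_ne_zero hQ b
    have hL5 : π (L * Z5 * L⁻¹) = π (Z5 * (Z6 ^ i * Q ^ j)) := by
      rw [hab, map_mul π Z5, map_mul π (Z6 ^ i), hi, hj]
    refine ⟨?_, ?_, ?_⟩
    · rw [show L * Q * L⁻¹ = ⁅L * Z6 * L⁻¹, L * Z5 * L⁻¹⁆ by
        simp only [hQdef, commutatorElement_def]; group,
        Schur.commutator_congr hc hL6 hL5]
      exact commutator_mul_right_of_commute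
        (((Commute.refl Z6).zpow_right i).mul_right (hQ6.symm.zpow_right j))
    · rw [show L * w6 * L⁻¹ = ⁅L * h * L⁻¹, L * Z6 * L⁻¹⁆ by
        simp only [hw6def, commutatorElement_def]; group, Schur.commutator_congr hc hLh hL6]
    · have e1 : L * w5 * L⁻¹ = ⁅h, Z5 * (Z6 ^ i * Q ^ j)⁆ := by
        rw [show L * w5 * L⁻¹ = ⁅L * h * L⁻¹, L * Z5 * L⁻¹⁆ by
          simp only [hw5def, commutatorElement_def]; group, Schur.commutator_congr hc hLh hL5]
      have e2 : h * (Z6 ^ i * Q ^ j) * h⁻¹ = w6 ^ i * (Z6 ^ i * Q ^ j) := by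
        calc h * (Z6 ^ i * Q ^ j) * h⁻¹ = (h * Z6 ^ i * h⁻¹) * (h * Q ^ j * h⁻¹) := by group
          _ = (h * Z6 * h⁻¹) ^ i * (h * Q * h⁻¹) ^ j := by rw [conj_zpow, conj_zpow]
          _ = (w6 * Z6) ^ i * Q ^ j := by rw [hhQ, hw6def]; simp [commutatorElement_def]
          _ = _ := by rw [h66.mul_zpow, mul_assoc]
      have e3 : Z5 * w6 ^ i * Z5⁻¹ = Q ^ (-i) * w6 ^ i := by
        rw [← conj_zpow, show Z5 * w6 * Z5⁻¹ = Q⁻¹ * w6 by
          rw [hQdef, commutatorElement_inv,
            ← Schur.commutator_congr hc (g := Z5) (g' := Z5) rfl (hw6.trans hZ6.symm)]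
          simp [commutatorElement_def], (hQw6.symm.inv_left).mul_zpow, inv_zpow']
      refine ⟨i, -i, ?_⟩
      rw [e1, ← e3, hw5def]
      calc ⁅h, Z5 * (Z6 ^ i * Q ^ j)⁆
          = ⁅h, Z5⁆ * (Z5 * (h * (Z6 ^ i * Q ^ j) * h⁻¹ * (Z6 ^ i * Q ^ j)⁻¹) * Z5⁻¹) := by
            simp only [commutatorElement_def]; group
        _ = _ := by rw [e2, mul_inv_cancel_right]
  obtain ⟨g, hg⟩ := lift_mem hrange (S.nG_mem F (S.wf.simple_lt 0 (by decide)) (1 : F))
  set w4 := g⁻¹ * Q * g with hw4def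
  obtain ⟨e4, he4, hw4⟩ : ∃ e : F, e ≠ 0 ∧ π w4 = S.xG F 4 e := by
    have hη : (S.eta 0 4 : F) * S.eta 0 4 = 1 := by
      rcases S.eta_sign 0 (by decide) 4 (by decide) with e | e <;> rw [e] <;> simp
    refine ⟨(S.eta 0 4 : F), fun e => by rw [e] at hη; simp at hη, ?_⟩
    have := S.nG_conj_xG F (i := 0) (by decide) (r := 4) (by decide) (S.eta 0 4 : F)
    rw [show chevB2.reflectRoot 0 4 = 7 by decide +kernel, hη] at this
    rw [hw4def, map_mul, map_mul, map_inv, hg, hQ, mul_assoc, inv_mul_eq_iff_eq_mul, this]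
  have h43 : w4 ^ 3 = 1 := by
    have : (g⁻¹ * Q * g) ^ 3 = g⁻¹ * Q ^ 3 * g := by
      have := conj_pow (i := 3) (a := g⁻¹) (b := Q)
      rwa [inv_inv] at this
    rw [hw4def, this, hQ3, mul_one, inv_mul_cancel]
  obtain ⟨c4Q, c46, i, j, c45⟩ := hconj e4 w4 hw4
  let A := Subgroup.zpowers Q ⊔ Subgroup.zpowers w6
  have hA : A = Subgroup.closure {Q, w6} := by
    rw [Set.insert_eq, Subgroup.closure_union, ← Subgroup.zpowers_eq_closure,
      ← Subgroup.zpowers_eq_closure]
  let H := A ⊔ Subgroup.zpowers w5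
  have hH : H = Subgroup.closure {Q, w6, w5} := by
    show (Subgroup.zpowers Q ⊔ Subgroup.zpowers w6) ⊔ _ = _
    rw [Set.insert_eq, Set.insert_eq, Subgroup.closure_union, Subgroup.closure_union,
      ← Subgroup.zpowers_eq_closure, ← Subgroup.zpowers_eq_closure,
      ← Subgroup.zpowers_eq_closure, sup_assoc]
  let V := H ⊔ Subgroup.zpowers w4
  have hQA : Q ∈ A := Subgroup.mem_sup_left (Subgroup.mem_zpowers Q)
  have h6A : w6 ∈ A := Subgroup.mem_sup_right (Subgroup.mem_zpowers w6)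
  have n1 : Subgroup.zpowers w6 ≤ Subgroup.normalizer (Subgroup.zpowers Q : Set Γ) :=
    le_normalizer_zpowers (Subgroup.zpowers_eq_closure Q) fun x hx => by
      rw [Set.mem_singleton_iff.1 hx, hQw6.eq, mul_inv_cancel_right]
      exact Subgroup.mem_zpowers Q
  have n2 : Subgroup.zpowers w5 ≤ Subgroup.normalizer (A : Set Γ) :=
    le_normalizer_zpowers hA fun x hx => by
      rcases hx with rfl | hx
      · rw [hQw5.eq, mul_inv_cancel_right]; exact hQA
      · rw [Set.mem_singleton_iff.1 hx, h56]; exact mul_mem (inv_mem hQA) h6A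
  have n3 : Subgroup.zpowers w4 ≤ Subgroup.normalizer (H : Set Γ) :=
    le_normalizer_zpowers hH fun x hx => by
      rcases hx with rfl | rfl | rfl
      · rw [c4Q]; exact Subgroup.mem_sup_left hQA
      · rw [c46]; exact Subgroup.mem_sup_left h6A
      · rw [c45]
        exact mul_mem (Subgroup.mem_sup_right (Subgroup.mem_zpowers _))
          (Subgroup.mem_sup_left (mul_mem (zpow_mem hQA _) (zpow_mem h6A _)))
  have hord : ∀ x : Γ, x ^ 3 = 1 → Nat.card (Subgroup.zpowers x) ≤ 3 := fun x hx => by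
    rw [Nat.card_zpowers]
    exact orderOf_le_of_pow_eq_one (by norm_num) hx
  have hV : Nat.card V ≤ 81 := by
    have e1 : Nat.card V ≤ Nat.card H * Nat.card (Subgroup.zpowers w4) := natCard_sup_le n3
    have e2 : Nat.card H ≤ Nat.card A * Nat.card (Subgroup.zpowers w5) := natCard_sup_le n2
    have e3 : Nat.card A ≤ Nat.card (Subgroup.zpowers Q) * Nat.card (Subgroup.zpowers w6) :=
      natCard_sup_le n1
    calc Nat.card V ≤ _ := e1
      _ ≤ 3 * 3 * 3 * 3 := Nat.mul_le_mul (e2.trans (Nat.mul_le_mul (e3.trans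
          (Nat.mul_le_mul (hord _ hQ3) (hord _ h63))) (hord _ h53))) (hord _ h43)
      _ = 81 := by norm_num
  have h4V : w4 ∈ V := Subgroup.mem_sup_right (Subgroup.mem_zpowers _)
  have h5V : w5 ∈ V := Subgroup.mem_sup_left (Subgroup.mem_sup_right (Subgroup.mem_zpowers _))
  have h6V : w6 ∈ V := Subgroup.mem_sup_left (Subgroup.mem_sup_left h6A)
  have h7V : Q ∈ V := Subgroup.mem_sup_left (Subgroup.mem_sup_left hQA)
  have hmap : V.map π = chevB2.posUnipotent F := by
    refine le_antisymm ?_ ?_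
    · have hx : ∀ {r : ℕ}, chevB2.IsPosRoot r → ∀ t, S.xG F r t ∈ chevB2.posUnipotent F :=
        fun {r} hr t => Subgroup.subset_closure ⟨r, t, hr, S.xG_val F r t⟩
      simp only [V, H, A, Subgroup.map_sup, MonoidHom.map_zpowers, sup_le_iff, Subgroup.zpowers_le,
        hQ, hw4, hw5, hw6]
      exact ⟨⟨⟨hx (by decide +kernel) _, hx (by decide +kernel) _⟩, hx (by decide +kernel) _⟩,
        hx (by decide +kernel) _⟩
    · refine (Subgroup.closure_le _).2 ?_
      rintro x ⟨r, t, hr, e⟩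
      obtain rfl : x = S.xG F r t := Units.ext (e.trans (S.xG_val F r t).symm)
      have hlist : ∀ r : Fin chevB2.nroots, chevB2.IsPosRoot r →
          (r : ℕ) = 4 ∨ (r : ℕ) = 5 ∨ (r : ℕ) = 6 ∨ (r : ℕ) = 7 := by decide +kernel
      have key : ∀ {e : F} {Z : Γ}, e ≠ 0 → π Z = S.xG F r e → Z ∈ V →
          S.xG F r t ∈ V.map π := fun {e Z} he hZ hm => by
        obtain ⟨m, hm'⟩ := hgen he hZ t
        exact ⟨Z ^ m, zpow_mem hm m, hm'⟩
      rcases hlist ⟨r, hr.1⟩ hr with e | e | e | e <;> simp only at e <;> subst e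
      · exact key he4 hw4 h4V
      · exact key one_ne_zero hw5 h5V
      · exact key one_ne_zero hw6 h6V
      · exact key one_ne_zero hQ h7V
  refine ⟨V, ?_, hmap⟩
  have hU : Nat.card ↥(chevB2.posUnipotent F) = 81 := by
    rw [SteinbergChar.natCard_posUnipotent S F, hF]
    rfl
  have hsurj : Function.Surjective (π.subgroupMap V) := π.subgroupMap_surjective V
  have hbij : Function.Bijective (π.subgroupMap V) :=
    hsurj.bijective_of_nat_card_le (by rw [hmap, hU]; exact hV)
  rw [eq_bot_iff]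
  rintro z ⟨hzV, hz⟩
  have := hbij.1 (a₁ := ⟨z, hzV⟩) (a₂ := 1) (Subtype.ext (by
    rw [map_one, OneMemClass.coe_one]
    exact hz))
  exact Subgroup.mem_bot.2 (congrArg Subtype.val this)

include hrange hc in
/-- No element of order three in the kernel of a perfect extension. -/
theorem ker_no_three (hperf : commutator Γ = ⊤) {z : Γ} (hz : z ∈ π.ker) (h : z ^ 3 = 1) :
    z = 1 := by
  obtain ⟨V, hV, hVmap⟩ := exists_split_unipotent hF hrange hc
  set R := (chevB2.posUnipotent F).comap π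
  have : Fact (Nat.Prime 3) := ⟨Nat.prime_three⟩
  have : CharP F 3 := by
    have h0 : ((3 : ℕ) : F) = 0 := by rw [← hF]; exact FiniteField.cast_card_eq_zero F
    exact (CharP.ringChar_of_prime_eq_zero Nat.prime_three h0) ▸ ringChar.charP F
  have hidx : ¬ 3 ∣ R.index := by
    rw [Subgroup.index_comap, hrange]
    exact SteinbergChar.not_dvd_index sysB2 F 3
  have hcom : ⁅R, R⁆ ≤ V := by
    rw [Subgroup.commutator_le]
    intro a ha b hb
    have lift : ∀ x ∈ R, ∃ v ∈ V, π v = π x := fun x hx => by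
      have hx' : π x ∈ V.map π := hVmap ▸ hx
      exact hx'
    obtain ⟨v, hv, ev⟩ := lift a ha
    obtain ⟨v', hv', ev'⟩ := lift b hb
    rw [Schur.commutator_congr hc ev.symm ev'.symm, commutatorElement_def]
    exact mul_mem (mul_mem (mul_mem hv hv') (inv_mem hv)) (inv_mem hv')
  have hmem := hcom (Schur.pow_index_mem_commutator R (hc hz) (hperf ▸ Subgroup.mem_top z))
  have h1 : z ^ R.index = 1 := by
    have : z ^ R.index ∈ V ⊓ π.ker := ⟨hmem, pow_mem hz _⟩
    rwa [hV, Subgroup.mem_bot] at this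
  have hcop : Nat.Coprime 3 R.index := (Nat.prime_three.coprime_iff_not_dvd).2 hidx
  have := pow_gcd_eq_one.2 ⟨h, h1⟩
  rwa [hcop.gcd_eq_one, pow_one] at this

end CfsgLib.ChevSteinberg
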