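import Mathlib
import Cfsg.Agent.SteinbergSL.Symbol
import Cfsg.Agent.ChevSteinberg.TorusHom

/-!
Over a finite field the maps `t ↦ h_r(t)` are multiplicative in every group with Steinberg's
relations (R1), (R2).
-/

set_option autoImplicit false

open scoped commutatorElement

namespace CfsgLib.ChevSteinberg

open Cfsg.Lie CfsgLib.Chevalley

variable {D : ChevalleyDatum}

namespace StSys

variable {S : Sys D} {F : Type*} [Field F] {G : Type*} [Group G] (T : StSys S F G)
variable (W : Witness S) (i : Fin D.rank)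
include W

theorem nT_conj_self {t : F} (ht : t ≠ 0) (x : F) :
    T.nT (D.simple i) t * T.y (D.simple i) x * (T.nT (D.simple i) t)⁻¹ =
      T.y (D.neg (D.simple i)) (-(x / t ^ 2)) := by
  have hl := S.wf.simple_lt i i.isLt
  rw [nT_conj W T i hl ht, S.w_simple i.isLt]
  congr 1
  rw [nScalar, S.w_simple i.isLt, S.cartan_neg hl i.isLt, S.cartan_simple i.isLt,
    S.eta_simple i i.isLt, zpow_neg, show ((2 : ℤ)) = ((2 : ℕ) : ℤ) from rfl, zpow_natCast]
  field_simp
  push_cast
  ring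

theorem nT_conj_opp {t : F} (ht : t ≠ 0) (x : F) :
    T.nT (D.simple i) t * T.y (D.neg (D.simple i)) x * (T.nT (D.simple i) t)⁻¹ =
      T.y (D.simple i) (-(t ^ 2 * x)) := by
  have hl := S.wf.simple_lt i i.isLt
  rw [nT_conj W T i (S.wf.neg_lt _ hl) ht]
  have e : D.reflectRoot i (D.neg (D.simple i)) = D.simple i := by
    rw [S.w_neg i i.isLt _ hl, S.w_simple i.isLt, S.wf.neg_neg _ hl]
  rw [nScalar, e, S.cartan_simple i.isLt, S.eta_neg i i.isLt _ hl, S.eta_simple i i.isLt,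
    show ((2 : ℤ)) = ((2 : ℕ) : ℤ) from rfl, zpow_natCast]
  congr 1
  push_cast
  ring

theorem nT_eq_opp {t : F} (ht : t ≠ 0) :
    T.nT (D.simple i) t =
      T.y (D.neg (D.simple i)) (-t⁻¹) * T.y (D.simple i) t * T.y (D.neg (D.simple i)) (-t⁻¹) := by
  have A := T.nT_conj_self W i ht t
  have B := T.nT_conj_opp W i ht (-t⁻¹)
  have e1 : -(t / t ^ 2) = -t⁻¹ := by field_simp
  have e2 : -(t ^ 2 * -t⁻¹) = t := by field_simp
  rw [e1] at A
  rw [e2] at B
  calc T.nT (D.simple i) t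
      = T.nT (D.simple i) t * T.nT (D.simple i) t * (T.nT (D.simple i) t)⁻¹ := by group
    _ = (T.nT (D.simple i) t * T.y (D.simple i) t * (T.nT (D.simple i) t)⁻¹) *
        (T.nT (D.simple i) t * T.y (D.neg (D.simple i)) (-t⁻¹) * (T.nT (D.simple i) t)⁻¹) *
        (T.nT (D.simple i) t * T.y (D.simple i) t * (T.nT (D.simple i) t)⁻¹) := by
      conv_lhs => arg 1; arg 2; rw [nT]
      group
    _ = _ := by rw [A, B]

/-- Steinberg's identity in rank one. -/
theorem nT_identity {u v : F} (hu : u ≠ 0) (hv : v ≠ 0) (huv : u + v = 1) :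
    T.nT (D.simple i) u * T.nT (D.simple i) (-1) * T.nT (D.simple i) v =
      T.nT (D.simple i) (u * v) := by
  have hv' : -v ≠ 0 := neg_ne_zero.2 hv
  have huv' : u * v ≠ 0 := mul_ne_zero hu hv
  set p := D.simple i with hp
  set q := D.neg p with hq
  have ey : T.y q (-u⁻¹) = T.y q (-(u * v)⁻¹) * T.y q v⁻¹ := by
    rw [T.add]; congr 1; field_simp; linear_combination -huv
  have ey1 : T.y q 1 = T.y q v⁻¹ * T.y q (-(u / v)) := by
    rw [T.add]; congr 1; field_simp; linear_combination huv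
  have hN : T.nT p (-v) = T.y q v⁻¹ * T.y p (-v) * T.y q v⁻¹ := by
    rw [hq, hp, T.nT_eq_opp W i hv']; simp [inv_neg]
  calc T.nT p u * T.nT p (-1) * T.nT p v
      = T.y p u * T.y q (-u⁻¹) * (T.y p u * T.y p (-1)) * T.y q 1 *
          (T.y p (-1) * T.y p v) * T.y q (-v⁻¹) * T.y p v := by
        simp [nT, hq, mul_assoc, inv_neg]
    _ = T.y p u * T.y q (-(u * v)⁻¹) * T.nT p (-v) * T.y q (-(u / v)) *
          T.y p (-u) * T.y q (-v⁻¹) * T.y p v := by
        have e1 : u + -1 = -v := by linear_combination huv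
        have e2 : -1 + v = -u := by linear_combination huv
        rw [T.add, T.add, e1, e2, ey, ey1, hN]
        simp only [mul_assoc]
    _ = T.y p u * T.y q (-(u * v)⁻¹) * T.y p (u * v) * T.y q (u / v ^ 2) *
          T.y p v * (T.nT p (-v) * T.y p v) := by
        have A := mul_inv_eq_iff_eq_mul.1 (T.nT_conj_opp W i hv' (-(u / v)))
        have B := mul_inv_eq_iff_eq_mul.1 (T.nT_conj_self W i hv' (-u))
        have C := mul_inv_eq_iff_eq_mul.1 (T.nT_conj_opp W i hv' (-v⁻¹))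
        have e1 : -((-v) ^ 2 * -(u / v)) = u * v := by field_simp
        have e2 : -(-u / (-v) ^ 2) = u / v ^ 2 := by field_simp
        have e3 : -((-v) ^ 2 * -v⁻¹) = v := by field_simp
        rw [e1, ← hp, ← hq] at A; rw [e2, ← hp, ← hq] at B; rw [e3, ← hp, ← hq] at C
        simp only [mul_assoc]
        rw [← mul_assoc (T.nT p (-v)) (T.y q (-(u / v))), A]
        simp only [mul_assoc]
        rw [← mul_assoc (T.nT p (-v)) (T.y p (-u)), B]
        simp only [mul_assoc]
        rw [← mul_assoc (T.nT p (-v)) (T.y q (-v⁻¹)), C]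
        simp only [mul_assoc]
    _ = T.y p u * T.y q (-(u * v)⁻¹) * T.y p (u * v) * T.y q (u / v ^ 2) * T.y q v⁻¹ := by
        simp only [nT, ← hq, mul_assoc]
        rw [T.add, neg_add_cancel, T.y_zero, mul_one, ← mul_assoc (T.y p v),
          T.add, add_neg_cancel, T.y_zero, one_mul]
        simp [inv_neg]
    _ = T.y p (u ^ 2) * (T.nT p (u * v) * T.y q (v ^ 2)⁻¹) := by
        have e1 : u = u ^ 2 + u * v := by linear_combination (-u) * huv
        have e2 : u / v ^ 2 + v⁻¹ = (v ^ 2)⁻¹ := by field_simp; linear_combination huv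
        rw [mul_assoc _ (T.y q (u / v ^ 2)), T.add, e2]
        conv_lhs => rw [congrArg (T.y p) e1, ← T.add]
        simp only [nT, ← hq, mul_assoc]
    _ = T.nT p (u * v) := by
        have A := mul_inv_eq_iff_eq_mul.1 (T.nT_conj_opp W i huv' (v ^ 2)⁻¹)
        have e : -((u * v) ^ 2 * (v ^ 2)⁻¹) = -u ^ 2 := by field_simp
        rw [e, ← hp, ← hq] at A
        rw [A, ← mul_assoc, T.add, add_neg_cancel, T.y_zero, one_mul]

variable (hgen : Subgroup.closure {g | ∃ r < D.nroots, ∃ t, g = T.y r t} = ⊤)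
include hgen

omit i in
theorem central_of_θ {g : G} (h : T.θ g = 1) : g ∈ Subgroup.center G :=
  (T.ker_le W hgen g h).1

/-- `h_p` on units. -/
def hU (a : Fˣ) : G := T.hT (D.simple i) (a : F)

omit W hgen in
theorem θ_hU (a : Fˣ) : T.θ (T.hU i a) = tor D F (Pi.mulSingle (i : ℕ) a) := by
  rw [hU, T.θ_hT i a.ne_zero, Units.mk0_val]

/-- The symbol. -/
def sym (a b : Fˣ) : G := T.hU i a * T.hU i b * (T.hU i (a * b))⁻¹

theorem sym_central (a b : Fˣ) : T.sym i a b ∈ Subgroup.center G := by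
  refine T.central_of_θ W hgen ?_
  rw [sym, map_mul, map_mul, map_inv, T.θ_hU, T.θ_hU, T.θ_hU, Pi.mulSingle_mul, map_mul,
    mul_inv_cancel]

theorem comm_central (a b : Fˣ) : ⁅T.hU i a, T.hU i b⁆ ∈ Subgroup.center G := by
  refine T.central_of_θ W hgen ?_
  rw [commutatorElement_def, map_mul, map_mul, map_mul, map_inv, map_inv, T.θ_hU, T.θ_hU,
    ← map_mul, ← map_inv, ← map_inv, ← map_mul, ← map_mul, mul_inv_cancel_comm, mul_inv_cancel,
    map_one]

variable [Finite F]

theorem hU_commute (a b : Fˣ) : Commute (T.hU i a) (T.hU i b) := by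
  rw [← commutatorElement_eq_one_iff_commute]
  have hl : ∀ x x' y, ⁅T.hU i (x * x'), T.hU i y⁆ = ⁅T.hU i x', T.hU i y⁆ * ⁅T.hU i x, T.hU i y⁆ := by
    intro x x' y
    have e : T.hU i (x * x') = (T.sym i x x')⁻¹ * (T.hU i x * T.hU i x') := by rw [sym]; group
    rw [e]
    exact CfsgLib.SteinbergSL.commutator_central_mul_left
      (inv_mem (T.sym_central W i hgen x x')) (T.comm_central W i hgen x' y)
  let L : Fˣ → (Fˣ →* G) := fun y =>
    MonoidHom.mk' (fun x => ⁅T.hU i x, T.hU i y⁆) fun x x' => by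
      rw [hl]; exact Subgroup.mem_center_iff.1 (T.comm_central W i hgen x y) _
  obtain ⟨g, hg⟩ := IsCyclic.exists_generator (α := Fˣ)
  have h1 : ∀ x, ⁅T.hU i x, T.hU i g⁆ = 1 := by
    intro x
    obtain ⟨m, rfl⟩ := hg x
    show L g (g ^ m) = 1
    rw [map_zpow, show L g g = ⁅T.hU i g, T.hU i g⁆ from rfl, commutatorElement_self, one_zpow]
  obtain ⟨n, rfl⟩ := hg b
  show ⁅T.hU i a, T.hU i (g ^ n)⁆ = 1
  rw [← inv_inj, inv_one, commutatorElement_inv]
  show L a (g ^ n) = 1
  rw [map_zpow, show L a g = ⁅T.hU i g, T.hU i a⁆ from rfl, ← commutatorElement_inv, h1, inv_one,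
    one_zpow]

theorem hU_mul (a b : Fˣ) : T.hU i a * T.hU i b = T.hU i (a * b) := by
  classical
  have hcomm := T.hU_commute W i hgen
  have hsq : ∀ v u : Fˣ, T.hU i (v * v * u) = T.hU i u * T.hU i (v * v) := by
    intro v u
    have hl := S.wf.simple_lt i i.isLt
    have e : T.hU i v * T.hU i u * (T.hU i v)⁻¹ = T.hU i (v * v * u) * (T.hU i (v * v))⁻¹ := by
      simp only [hU]
      calc _ = (T.hT (D.simple i) (v : F) * T.nT (D.simple i) (u : F) *
              (T.hT (D.simple i) (v : F))⁻¹) * (T.hT (D.simple i) (v : F) *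
              T.nT (D.simple i) (-1) * (T.hT (D.simple i) (v : F))⁻¹) := by
            conv_lhs => arg 1; arg 2; rw [hT]
            group
        _ = _ := by
          rw [T.hT_conj_nT W i i v.ne_zero, T.hT_conj_nT W i i v.ne_zero, S.cartan_simple i.isLt,
            show ((2 : ℤ)) = ((2 : ℕ) : ℤ) from rfl, zpow_natCast, T.nT_mul_nT,
            show -((v : F) ^ 2 * -1) = (v : F) * v by ring, pow_two, Units.val_mul, Units.val_mul]
    rw [(hcomm v u).eq, mul_inv_cancel_right] at e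
    exact (mul_inv_eq_iff_eq_mul.1 e.symm)
  have hc : ∀ x y, T.hU i x * T.hU i y = T.sym i x y * T.hU i (x * y) := by
    intro x y; rw [sym]; group
  have hz : ∀ x y, T.sym i x y ∈ Subgroup.center G := T.sym_central W i hgen
  have hs2 : ∀ v x, T.sym i x (v * v) = 1 := by
    intro v x
    rw [sym, ← hsq v x, mul_comm x, mul_inv_cancel]
  have hsymm : ∀ x y, T.sym i x y = T.sym i y x := by
    intro x y; rw [sym, sym, (hcomm x y).eq, mul_comm x y]
  have hcoc : ∀ x y z, T.sym i x y * T.sym i (x * y) z = T.sym i y z * T.sym i x (y * z) := by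
    intro x y z
    have h := mul_assoc (T.hU i x) (T.hU i y) (T.hU i z)
    rw [hc x y, mul_assoc, hc (x * y) z, hc y z, ← mul_assoc (T.hU i x),
      Subgroup.mem_center_iff.1 (hz y z) (T.hU i x), mul_assoc (T.sym i y z), hc x (y * z),
      ← mul_assoc, ← mul_assoc, mul_assoc x y z] at h
    exact mul_right_cancel h
  have hshift : ∀ v x y, T.sym i (v * v * x) y = T.sym i x y := by
    intro v x y
    have h := hcoc x (v * v) y
    rw [hs2, one_mul, hsymm (v * v) y, hs2, one_mul, mul_comm x] at h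
    rw [h, hsymm x (v * v * y)]
    have h2 := hcoc y (v * v) x
    rw [hs2, one_mul, hsymm (v * v) x, hs2, one_mul, mul_comm y] at h2
    have h3 := hcoc x y (v * v)
    rw [hs2, mul_one, hs2, one_mul] at h3
    rw [mul_comm (v * v) y, hsymm, ← h3]
  suffices h : T.sym i a b = 1 by rwa [sym, mul_inv_eq_one] at h
  have hsquare : ∀ x y, IsSquare x → T.sym i x y = 1 := by
    rintro _ y ⟨v, rfl⟩
    rw [hsymm, hs2]
  by_cases ha : IsSquare a
  · exact hsquare a b ha
  by_cases hb : IsSquare b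
  · rw [hsymm]; exact hsquare b a hb
  have h2 : ringChar F ≠ 2 := by
    intro h2
    refine ha ?_
    have : CharP F 2 := ringChar.of_eq h2
    obtain ⟨r, hr⟩ := isSquare_of_charTwo' (a : F)
    exact ⟨Units.mk0 r (fun h => a.ne_zero (by rw [hr, h, mul_zero])), Units.ext hr⟩
  obtain ⟨u, v, hu, hv, huv⟩ := CfsgLib.SteinbergSL.exists_not_isSquare_one_sub h2
  obtain ⟨g, hg⟩ := IsCyclic.exists_generator (α := Fˣ)
  have hodd : ∀ x : Fˣ, ¬ IsSquare x → ∃ w, x = w * w * g := by
    intro x hx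
    obtain ⟨z, rfl⟩ := hg x
    rcases Int.even_or_odd z with ⟨r, hr⟩ | ⟨r, hr⟩
    · exact absurd ⟨g ^ r, by simp [hr, zpow_add]⟩ hx
    · exact ⟨g ^ r, by simp [hr, zpow_add, ← mul_assoc, two_mul]⟩
  have hclass : ∀ x y, ¬ IsSquare x → ¬ IsSquare y → T.sym i x y = T.sym i g g := by
    intro x y hx hy
    obtain ⟨w, rfl⟩ := hodd x hx
    obtain ⟨w', rfl⟩ := hodd y hy
    rw [hshift, hsymm, hshift]
  rw [hclass a b ha hb, ← hclass u v hu hv, sym, mul_inv_eq_one]
  simp only [hU, hT, Units.val_mul]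
  rw [← T.nT_identity W i u.ne_zero v.ne_zero huv]
  simp only [mul_assoc]

theorem mulH_of_finite : T.MulH := by
  intro j t u ht hu
  have := T.hU_mul W j hgen (Units.mk0 t ht) (Units.mk0 u hu)
  simpa [hU] using this

omit i in
/-- Over a finite field `t ↦ h_r(t)` is multiplicative for every root. -/
theorem hT_mul_of_finite : ∀ r < D.nroots, ∀ t u : F, t ≠ 0 → u ≠ 0 →
    T.hT r t * T.hT r u = T.hT r (t * u) := by
  refine S.root_induction (P := fun r => ∀ t u : F, t ≠ 0 → u ≠ 0 →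
    T.hT r t * T.hT r u = T.hT r (t * u)) ?_ ?_
  · intro j hj t u ht hu
    exact T.mulH_of_finite W hgen ⟨j, hj⟩ t u ht hu
  intro j hj r hr hmul t u ht hu
  set n := T.nT (D.simple j) 1
  obtain ⟨σ, c, hc, hm, hσ⟩ := T.exists_acts W
    (T.nT_mem_NT ⟨j, hj⟩ (one_ne_zero : (1 : F) ≠ 0))
  obtain ⟨hc0, hn⟩ := T.acts_neg hc hm hσ ⟨r, hr⟩
  have hσr : (σ ⟨r, hr⟩ : ℕ) = D.reflectRoot j r := by
    have h := congrArg T.θ (hc ⟨r, hr⟩ 1)
    rw [map_mul, map_mul, map_inv, T.θ_y, T.θ_y, T.θ_nT] at h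
    have e : σ = S.srefl ⟨j, hj⟩ := by
      rw [← hσ, ← perm_nG ⟨j, hj⟩ (one_ne_zero : (1 : F) ≠ 0) (nG_mem_mono _ one_ne_zero)]
      exact congrArg (S.perm F) (Subtype.ext (T.θ_nT _ _))
    rw [e, S.srefl_val]
  set d := c ⟨r, hr⟩
  have key : ∀ x : F, x ≠ 0 → n * T.hT r x * n⁻¹ = T.hT (D.reflectRoot j r) x := by
    intro x hx
    calc n * T.hT r x * n⁻¹ = (n * T.nT r x * n⁻¹) * (n * T.nT r (-1) * n⁻¹) := by
          rw [hT]; group
      _ = T.nT (D.reflectRoot j r) (d * x) * T.nT (D.reflectRoot j r) (d * -1) := by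
          rw [← hσr, T.conj_nT hc0 (hc ⟨r, hr⟩) hn, T.conj_nT hc0 (hc ⟨r, hr⟩) hn]
      _ = _ := by
          rw [T.nT_mul_nT, show -(d * -1) = d by ring, mul_inv_eq_iff_eq_mul,
            hmul x d hx hc0, mul_comm x d]
  refine mul_left_cancel (a := n) (mul_right_cancel (b := n⁻¹) ?_)
  rw [key _ (mul_ne_zero ht hu), show n * (T.hT r t * T.hT r u) * n⁻¹ =
    (n * T.hT r t * n⁻¹) * (n * T.hT r u * n⁻¹) by group, key t ht, key u hu, hmul t u ht hu]

end StSys

end CfsgLib.ChevSteinberg
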