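import Mathlib
import Cfsg.Agent.ChevSteinberg.Presented
import Cfsg.Agent.ChevSteinberg.SteinbergKernel
import Cfsg.Agent.ChevSteinberg.Symbols

/-!
Over a finite field the relators (R3) follow from (R1) and (R2).
-/

set_option autoImplicit false

namespace CfsgLib.ChevSteinberg

open Cfsg.Lie CfsgLib.Chevalley

variable {D : ChevalleyDatum} (S : Sys D) (F : Type*) [Field F]

theorem coverSys_hT (r : ℕ) (t : F) :
    (coverSys S F).hT r t = PresentedGroup.mk (D.steinbergRelsAB F) (D.stH r t) := by
  rw [ChevalleyDatum.stH, mk_stWord, ChevalleyDatum.hWord, List.map_append, List.prod_append]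
  simp [StSys.hT, StSys.nT, coverSys, ChevalleyDatum.nWord, ChevalleyDatum.scGen, mul_assoc]

include S in
/-- The two presented groups coincide over a finite field. -/
theorem exists_coverEquiv [Finite F] (W : Witness S) :
    ∃ e : D.SteinbergCover F ≃* D.SteinbergGroup F,
      ∀ (r : ℕ) (t : F), e (D.scGen F r t) = D.stGen F r t := by
  have h1 : ∀ g ∈ D.steinbergRelsAB F,
      FreeGroup.lift (fun x => (PresentedGroup.of x : D.SteinbergGroup F)) g = 1 := by
    intro g hg
    have e : FreeGroup.lift (fun x => (PresentedGroup.of x : D.SteinbergGroup F)) =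
        PresentedGroup.mk (D.steinbergRels F) := FreeGroup.ext_hom _ _ fun x => by
          rw [FreeGroup.lift_apply_of]; rfl
    rw [e]
    exact PresentedGroup.one_of_mem (Or.inl hg)
  have h2 : ∀ g ∈ D.steinbergRels F,
      FreeGroup.lift (fun x => (PresentedGroup.of x : D.SteinbergCover F)) g = 1 := by
    intro g hg
    have e : FreeGroup.lift (fun x => (PresentedGroup.of x : D.SteinbergCover F)) =
        PresentedGroup.mk (D.steinbergRelsAB F) := FreeGroup.ext_hom _ _ fun x => by
          rw [FreeGroup.lift_apply_of]; rfl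
    rw [e]
    rcases hg with hg | ⟨r, t, u, hr, ht, hu, rfl⟩
    · exact PresentedGroup.one_of_mem hg
    · rw [map_mul, map_mul, map_inv, ← coverSys_hT S F, ← coverSys_hT S F, ← coverSys_hT S F,
        (coverSys S F).hT_mul_of_finite W (cover_gen S F) r hr t u ht hu, mul_inv_cancel]
  set f := PresentedGroup.toGroup h1
  set g := PresentedGroup.toGroup h2
  have hf : ∀ x, f (PresentedGroup.of x) = PresentedGroup.of x := fun x =>
    PresentedGroup.toGroup.of h1
  have hg : ∀ x, g (PresentedGroup.of x) = PresentedGroup.of x := fun x =>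
    PresentedGroup.toGroup.of h2
  refine ⟨MonoidHom.toMulEquiv f g ?_ ?_, fun r t => ?_⟩
  · exact PresentedGroup.ext fun x => by simp [hf, hg]
  · exact PresentedGroup.ext fun x => by simp [hf, hg]
  · show f (D.scGen F r t) = _
    by_cases hr : r < D.nroots
    · have e1 : D.scGen F r t = PresentedGroup.of (⟨r, hr⟩, t) := by
        simp [ChevalleyDatum.scGen, ChevalleyDatum.stX, hr, PresentedGroup.of]
      have e2 : D.stGen F r t = PresentedGroup.of (⟨r, hr⟩, t) := by
        simp [ChevalleyDatum.stGen, ChevalleyDatum.stX, hr, PresentedGroup.of]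
      rw [e1, e2, hf]
    · simp [ChevalleyDatum.scGen, ChevalleyDatum.stGen, ChevalleyDatum.stX, hr]

end CfsgLib.ChevSteinberg
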