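import Mathlib
import Cfsg.Agent.ChevSteinberg.Kernel

/-!
In characteristic `p`, over a finite field: a finite central extension whose kernel has no element
of order `p` carries Steinberg's relations, the lifts being the elements of `p`-power order.
-/

set_option autoImplicit false

namespace CfsgLib.ChevSteinberg

open Cfsg.Lie CfsgLib.Chevalley

section PEl

/-- Elements of `p`-power order. -/
def IsPEl {G : Type*} [Monoid G] (p : ℕ) (g : G) : Prop := ∃ k : ℕ, g ^ p ^ k = 1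

variable {p : ℕ} {Γ G : Type*} [Group Γ] [Group G] (σ : Γ →* G)

theorem IsPEl.mul_of_commute {a b : Γ} (hab : Commute a b) (ha : IsPEl p a) (hb : IsPEl p b) :
    IsPEl p (a * b) := by
  obtain ⟨i, hi⟩ := ha
  obtain ⟨j, hj⟩ := hb
  refine ⟨i + j, ?_⟩
  rw [hab.mul_pow, pow_add, pow_mul, hi, one_pow, one_mul, mul_comm (p ^ i), pow_mul, hj, one_pow]

theorem IsPEl.inv {a : Γ} (ha : IsPEl p a) : IsPEl p a⁻¹ := by
  obtain ⟨i, hi⟩ := ha
  exact ⟨i, by rw [inv_pow, hi, inv_one]⟩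

variable (hc : σ.ker ≤ Subgroup.center Γ) (hno : ∀ z ∈ σ.ker, z ^ p = 1 → z = 1)

include hno in
theorem eq_one_of_isPEl {z : Γ} (hz : z ∈ σ.ker) (h : IsPEl p z) : z = 1 := by
  obtain ⟨k, hk⟩ := h
  induction k with
  | zero => simpa using hk
  | succ k ih =>
    refine ih (hno _ (pow_mem hz _) ?_)
    rw [← pow_mul, ← pow_succ, hk]

include hc hno in
theorem eq_of_isPEl {a b : Γ} (ha : IsPEl p a) (hb : IsPEl p b) (h : σ a = σ b) : a = b := by
  have hz : a⁻¹ * b ∈ σ.ker := by rw [MonoidHom.mem_ker, map_mul, map_inv, h, inv_mul_cancel]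
  have hcomm : Commute a⁻¹ b := by
    have := Subgroup.mem_center_iff.1 (hc hz) a
    rw [mul_inv_cancel_left] at this
    show a⁻¹ * b = b * a⁻¹
    exact eq_mul_inv_of_mul_eq this.symm
  exact inv_mul_eq_one.1 (eq_one_of_isPEl σ hno hz (ha.inv.mul_of_commute hcomm hb))

variable [Fact p.Prime]

include hno in
theorem exists_isPEl_lift [Finite Γ] (hs : Function.Surjective σ) {u : G} (hu : IsPEl p u) :
    ∃ a, σ a = u ∧ IsPEl p a := by
  obtain ⟨k, hk⟩ := hu
  obtain ⟨g, rfl⟩ := hs u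
  have hz : g ^ p ^ k ∈ σ.ker := by rw [MonoidHom.mem_ker, map_pow, hk]
  have hcop : Nat.Coprime (p ^ k) (orderOf (g ^ p ^ k)) := by
    refine Nat.Coprime.pow_left _ ((Fact.out : p.Prime).coprime_iff_not_dvd.2 fun hd => ?_)
    obtain ⟨m, hm⟩ := hd
    have h0 : 0 < orderOf (g ^ p ^ k) := orderOf_pos _
    have h1 := hno ((g ^ p ^ k) ^ m) (pow_mem hz _) (by
      rw [← pow_mul, mul_comm, ← hm, pow_orderOf_eq_one])
    have h2 := Nat.le_of_dvd (by rw [hm] at h0; exact Nat.pos_of_mul_pos_left h0)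
      (orderOf_dvd_of_pow_eq_one h1)
    have h3 := (Fact.out : p.Prime).two_le
    have : 0 < m := by rw [hm] at h0; exact Nat.pos_of_mul_pos_left h0
    nlinarith
  set z := g ^ p ^ k with hzdef
  set a : ℤ := Nat.gcdA (p ^ k) (orderOf z)
  have hbez : (1 : ℤ) = (p ^ k : ℕ) * a + (orderOf z : ℤ) * Nat.gcdB (p ^ k) (orderOf z) := by
    have := Nat.gcd_eq_gcd_ab (p ^ k) (orderOf z)
    rwa [hcop.gcd_eq_one, Nat.cast_one] at this
  refine ⟨g * z ^ (-a), ?_, k, ?_⟩
  · rw [map_mul, map_zpow, MonoidHom.mem_ker.1 hz, one_zpow, mul_one]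
  · have hcz : Commute g (z ^ (-a)) := ((Commute.refl g).pow_right _).zpow_right _
    rw [hcz.mul_pow, ← hzdef, ← zpow_natCast (z ^ (-a)), ← zpow_mul]
    nth_rewrite 1 [← zpow_one z]
    rw [← zpow_add, hbez,
      show (p ^ k : ℕ) * a + (orderOf z : ℤ) * Nat.gcdB (p ^ k) (orderOf z) + -a * (p ^ k : ℕ) =
        (orderOf z : ℤ) * Nat.gcdB (p ^ k) (orderOf z) by ring,
      zpow_mul, zpow_natCast, pow_orderOf_eq_one, one_zpow]

include hc in
theorem isPEl_mul [Finite G] {Q : Subgroup G} (hQ : IsPGroup p Q) {a b : Γ} (ha : IsPEl p a)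
    (hb : IsPEl p b) (hqa : σ a ∈ Q) (hqb : σ b ∈ Q) : IsPEl p (a * b) := by
  let Q' : Subgroup Γ := Q.comap σ
  let τ : Q' →* Q := MonoidHom.mk' (fun x => ⟨σ (x : Γ), x.2⟩)
    fun x y => Subtype.ext (map_mul σ (x : Γ) (y : Γ))
  have hle : τ.ker ≤ Subgroup.center Q' := by
    intro x hx
    have : (x : Γ) ∈ Subgroup.center Γ := hc (congrArg Subtype.val (MonoidHom.mem_ker.1 hx))
    exact Subgroup.mem_center_iff.2 fun y => Subtype.ext (Subgroup.mem_center_iff.1 this y)
  obtain ⟨j, hj⟩ := IsPGroup.iff_card.1 hQ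
  have hidx : τ.ker.index ∣ p ^ j := by
    rw [Subgroup.index_ker, ← hj]
    exact Subgroup.card_subgroup_dvd_card _
  obtain ⟨i, -, hi⟩ := (Nat.dvd_prime_pow Fact.out).1 ((Subgroup.index_dvd_of_le hle).trans hidx)
  have : (Subgroup.center Q').FiniteIndex :=
    ⟨by rw [hi]; exact pow_ne_zero _ (Fact.out : p.Prime).ne_zero⟩
  set f := MonoidHom.transferCenterPow Q'
  have hf : ∀ x : Q', ((f x : Q') : Γ) = (x : Γ) ^ p ^ i := fun x => by
    simp [f, MonoidHom.transferCenterPow_apply, hi]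
  have e : (a * b) ^ p ^ i = a ^ p ^ i * b ^ p ^ i := by
    have h := congrArg (fun z : Subgroup.center Q' => ((z : Q') : Γ))
      (map_mul f ⟨a, hqa⟩ ⟨b, hqb⟩)
    simp only [Subgroup.coe_mul] at h
    rw [hf, hf, hf] at h
    simpa using h
  have hcc : Commute (a ^ p ^ i) (b ^ p ^ i) := by
    have h := (f ⟨a, hqa⟩).2
    have h2 := congrArg (fun z : Q' => (z : Γ)) (Subgroup.mem_center_iff.1 h (f ⟨b, hqb⟩ : Q'))
    simp only [Subgroup.coe_mul, hf] at h2
    exact h2.symm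
  obtain ⟨l, hl⟩ : IsPEl p (a ^ p ^ i * b ^ p ^ i) := by
    refine IsPEl.mul_of_commute hcc ?_ ?_
    · obtain ⟨k, hk⟩ := ha
      exact ⟨k, by rw [← pow_mul, mul_comm, pow_mul, hk, one_pow]⟩
    · obtain ⟨k, hk⟩ := hb
      exact ⟨k, by rw [← pow_mul, mul_comm, pow_mul, hk, one_pow]⟩
  exact ⟨i + l, by rw [pow_add, pow_mul, e, hl]⟩

end PEl

variable {D : ChevalleyDatum} {S : Sys D} {F : Type*} [Field F]

include S in
theorem isPEl_posUnipotent {p : ℕ} [Fact p.Prime] [CharP F p] {g : GL D.Idx F}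
    (hg : g ∈ D.posUnipotent F) : IsPEl p g := by
  obtain ⟨h1, -⟩ := S.posUnipotent_le F hg
  have hX : ((g : Matrix D.Idx D.Idx F) - 1) ^ (D.nroots + 1) = 0 :=
    pow_eq_zero_of_raises h1 fun a => Nat.lt_succ_of_le (pos_le a)
  refine ⟨D.nroots + 1, Units.ext ?_⟩
  rw [Units.val_pow_eq_pow_val, Units.val_one]
  rcases isEmpty_or_nonempty D.Idx with h | h
  · exact Matrix.ext fun a => isEmptyElim a
  · have hle : D.nroots + 1 ≤ p ^ (D.nroots + 1) := (Nat.lt_pow_self (Fact.out : p.Prime).one_lt).le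
    have := sub_pow_char_pow_of_commute p (D.nroots + 1)
      (Commute.one_right (g : Matrix D.Idx D.Idx F))
    rw [one_pow, pow_eq_zero_of_le hle hX] at this
    exact sub_eq_zero.1 this.symm

/-- A list of reflections carrying two roots and the terms of their commutator to positive roots. -/
theorem exists_positive_system {r s : ℕ} (S : Sys D) (hr : r < D.nroots) (hs : s < D.nroots)
    (h2 : s ≠ D.neg r) : ∃ L : List (Fin D.rank), ∀ k : Fin D.nroots,
      ((k : ℕ) = r ∨ (k : ℕ) = s ∨ ∃ c ∈ D.commTerms r s, c.1 = (k : ℕ)) →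
        D.nroots / 2 ≤ (S.wperm L k : ℕ) := by
  obtain ⟨L0, a, hLa⟩ : ∃ (L : List (Fin D.rank)) (a : Fin D.rank),
      (S.wperm L (S.simpleF a) : ℕ) = r := by
    refine S.root_induction (P := fun r => ∃ (L : List (Fin D.rank)) (a : Fin D.rank),
      (S.wperm L (S.simpleF a) : ℕ) = r) ?_ ?_ r hr
    · exact fun i hi => ⟨[], ⟨i, hi⟩, by simp [Sys.wperm, Sys.simpleF]⟩
    · rintro i hi r hr ⟨L, a, e⟩
      refine ⟨⟨i, hi⟩ :: L, a, ?_⟩
      rw [S.wperm_cons, Equiv.Perm.mul_apply, S.srefl_val, e]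
      exact S.w_w i hi r hr
  have hL0 : S.wperm L0.reverse ⟨r, hr⟩ = S.simpleF a := by
    rw [S.wperm_reverse, Equiv.Perm.inv_eq_iff_eq]
    exact Fin.ext hLa.symm
  set s' := S.wperm L0.reverse ⟨s, hs⟩ with hs'
  obtain ⟨L, hLr, hLs⟩ : ∃ L : List (Fin D.rank), D.nroots / 2 ≤ (S.wperm L ⟨r, hr⟩ : ℕ) ∧
      D.nroots / 2 ≤ (S.wperm L ⟨s, hs⟩ : ℕ) := by
    by_cases hp : D.nroots / 2 ≤ (s' : ℕ)
    · exact ⟨L0.reverse, by rw [hL0]; exact S.simple_pos a a.isLt, hp⟩
    obtain ⟨W, hW⟩ := S.exists_longest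
    obtain ⟨m, hm⟩ := exists_simple_to_neg S W hW a
    have hWa : S.wperm W.reverse (S.simpleF a) = S.negF (S.simpleF m) := by
      rw [S.wperm_reverse, Equiv.Perm.inv_eq_iff_eq, S.wperm_negF, hm, S.negF_negF]
    set s'' := S.wperm W.reverse s' with hs''
    have hWs : S.wperm W s'' = s' := by
      rw [hs'', S.wperm_reverse]
      exact Equiv.apply_symm_apply _ _
    have hpp : D.nroots / 2 ≤ (s'' : ℕ) := by
      by_contra hlt
      have h3 := hW (S.negF s'') (S.root_lt_pos s''.isLt (by omega))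
      rw [S.wperm_negF, hWs, Sys.negF_val] at h3
      have := (S.neg_half _ s'.isLt).mp h3
      exact hp this
    have hne : s'' ≠ S.simpleF m := fun e => by
      rw [e, hm, ← hL0, hs', ← S.wperm_negF] at hWs
      exact h2 (congrArg Fin.val ((S.wperm L0.reverse).injective hWs.symm))
    refine ⟨m :: (W.reverse ++ L0.reverse), ?_, ?_⟩
    · rw [S.wperm_cons, S.wperm_append, Equiv.Perm.mul_apply, Equiv.Perm.mul_apply, hL0, hWa,
        show S.srefl m (S.negF (S.simpleF m)) = S.simpleF m by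
          refine Fin.ext ?_
          rw [S.srefl_val, Sys.negF_val,
            show ((S.simpleF m : Fin D.nroots) : ℕ) = D.simple m from rfl,
            S.w_neg m m.isLt _ (S.wf.simple_lt m m.isLt), S.w_simple m.isLt,
            S.wf.neg_neg _ (S.wf.simple_lt m m.isLt)]]
      exact S.simple_pos m m.isLt
    · rw [S.wperm_cons, S.wperm_append, Equiv.Perm.mul_apply, Equiv.Perm.mul_apply, ← hs']
      exact S.srefl_pos m hpp hne
  refine ⟨L, fun k hk => ?_⟩
  rcases hk with hk | hk | ⟨c, hc, hk⟩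
  · rw [show k = ⟨r, hr⟩ from Fin.ext hk]; exact hLr
  · rw [show k = ⟨s, hs⟩ from Fin.ext hk]; exact hLs
  · obtain ⟨m, hm, hmp⟩ := S.exists_vec_pos (Fin.isLt _) hLr
    refine S.pos_of_vec (Fin.isLt _) hm ?_
    obtain ⟨hi, hj, hv⟩ := S.commTerms_vec hr hs hc
    rw [show S.vec m (S.wperm L k) =
        c.2.2.1 * S.vec m (S.wperm L ⟨r, hr⟩) + c.2.2.2 * S.vec m (S.wperm L ⟨s, hs⟩) by
      rw [S.vec_wperm L _ m hm, S.vec_wperm L ⟨r, hr⟩ m hm, S.vec_wperm L ⟨s, hs⟩ m hm,
        Finset.mul_sum, Finset.mul_sum, ← Finset.sum_add_distrib]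
      refine Finset.sum_congr rfl fun x _ => ?_
      rw [← hk, hv x x.isLt]
      ring]
    have := S.vec_pos _ (Fin.isLt _) hLs m hm
    have : (0 : ℤ) < c.2.2.1 * S.vec m (S.wperm L ⟨r, hr⟩) := mul_pos (by omega) hmp
    nlinarith

variable {G : Type*} [Group G] (T : StSys S F G)

theorem StSys.isPGroup_U {p : ℕ} [Fact p.Prime] [CharP F p] (L : List (Fin D.rank)) :
    IsPGroup p (StSys.twistL L T).U := by
  intro g
  obtain ⟨k, hk⟩ := isPEl_posUnipotent (S := S) (p := p)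
    ((StSys.twistL L T).θ_mem_posUnipotent g.2)
  refine ⟨k, Subtype.ext ?_⟩
  rw [Subgroup.coe_pow, Subgroup.coe_one]
  exact (StSys.twistL L T).eq_one_of_mem_U (pow_mem g.2 _) (by rw [map_pow, hk])

theorem StSys.exists_twist_pos {r : ℕ} (L : List (Fin D.rank)) (hr : r < D.nroots)
    (h : D.nroots / 2 ≤ (S.wperm L.reverse ⟨r, hr⟩ : ℕ)) (t : F) :
    T.y r t ∈ (StSys.twistL L T).U := by
  refine T.y_mem_twistL L (S.wperm L.reverse ⟨r, hr⟩) h ?_ t
  rw [S.wperm_reverse]
  exact congrArg Fin.val (Equiv.apply_symm_apply (S.wperm L) ⟨r, hr⟩)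

/-- Lifts of `p`-power order in a finite central extension with kernel free of elements of order
`p` satisfy the relations. -/
theorem StSys.exists_lift_of_coprime {p : ℕ} [Fact p.Prime] [CharP F p] {Γ : Type*} [Group Γ]
    [Finite Γ] (σ : Γ →* G) (hs : Function.Surjective σ) (hc : σ.ker ≤ Subgroup.center Γ)
    (hno : ∀ z ∈ σ.ker, z ^ p = 1 → z = 1) :
    ∃ T' : StSys S F Γ, T'.θ = T.θ.comp σ ∧ ∀ r t, σ (T'.y r t) = T.y r t := by
  have : Finite G := Finite.of_surjective σ hs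
  have hP : ∀ r t, IsPEl p (T.y r t) := by
    intro r t
    by_cases hr : r < D.nroots
    · obtain ⟨L, q, hq, e⟩ := exists_word_top S r hr
      obtain ⟨L', hL'⟩ := exists_positive_system S hr hr (fun h => by
        have := S.neg_half r hr
        have := S.neg_antitone r hr
        have := S.even
        omega)
      obtain ⟨k, hk⟩ := T.isPGroup_U (p := p) L'.reverse
        ⟨_, T.exists_twist_pos L'.reverse hr
          (by rw [List.reverse_reverse]; exact hL' ⟨r, hr⟩ (Or.inl rfl)) t⟩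
      exact ⟨k, congrArg Subtype.val hk⟩
    · exact ⟨0, by rw [T.out r hr, one_pow]⟩
  choose y hy1 hy2 using fun r t => exists_isPEl_lift σ hno hs (hP r t)
  refine ⟨{ y := y
            θ := T.θ.comp σ
            out := fun r hr t => eq_of_isPEl σ hc hno (hy2 r t) ⟨0, by simp⟩
              (by rw [hy1, T.out r hr, map_one])
            add := fun r t u => ?_
            comm := fun r hr s hs' h1 h2 t u => ?_
            θ_y := fun r t => by rw [MonoidHom.comp_apply, hy1, T.θ_y] }, rfl, hy1⟩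
  · refine eq_of_isPEl σ hc hno ?_ (hy2 r _) (by rw [map_mul, hy1, hy1, hy1, T.add])
    by_cases hr : r < D.nroots
    · obtain ⟨L, hL⟩ := exists_positive_system S hr hr (fun h => by
        have := S.neg_half r hr
        have := S.neg_antitone r hr
        have := S.even
        omega)
      have hm : ∀ v, σ (y r v) ∈ (StSys.twistL L.reverse T).U := fun v => by
        rw [hy1]
        exact T.exists_twist_pos L.reverse hr
          (by rw [List.reverse_reverse]; exact hL ⟨r, hr⟩ (Or.inl rfl)) v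
      exact isPEl_mul σ hc (T.isPGroup_U L.reverse) (hy2 r t) (hy2 r u) (hm t) (hm u)
    · have h1 : ∀ v, y r v = 1 := fun v => eq_of_isPEl σ hc hno (hy2 r v) ⟨0, by simp⟩
        (by rw [hy1, T.out r hr, map_one])
      exact ⟨0, by simp [h1]⟩
  · obtain ⟨L, hL⟩ := exists_positive_system S hr hs' h2
    set Q := (StSys.twistL L.reverse T).U
    have hQ : IsPGroup p Q := T.isPGroup_U L.reverse
    have hm : ∀ k : ℕ, (k = r ∨ k = s ∨ ∃ c ∈ D.commTerms r s, c.1 = k) → ∀ v,
        IsPEl p (y k v) ∧ σ (y k v) ∈ Q := by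
      intro k hk v
      refine ⟨hy2 k v, ?_⟩
      rw [hy1]
      by_cases hkl : k < D.nroots
      · exact T.exists_twist_pos L.reverse hkl
          (by rw [List.reverse_reverse]; exact hL ⟨k, hkl⟩ hk) v
      · rw [T.out k hkl]; exact one_mem _
    have hmul : ∀ {a b : Γ}, (IsPEl p a ∧ σ a ∈ Q) → (IsPEl p b ∧ σ b ∈ Q) →
        IsPEl p (a * b) ∧ σ (a * b) ∈ Q := fun {a b} ha hb =>
      ⟨isPEl_mul σ hc hQ ha.1 hb.1 ha.2 hb.2, by rw [map_mul]; exact mul_mem ha.2 hb.2⟩
    have hinv : IsPEl p (y r t)⁻¹ ∧ σ (y r t)⁻¹ ∈ Q :=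
      ⟨(hm r (Or.inl rfl) t).1.inv, by rw [map_inv]; exact inv_mem (hm r (Or.inl rfl) t).2⟩
    have hword : ∀ l : List (ℕ × ℤ × ℕ × ℕ), (∀ c ∈ l, c ∈ D.commTerms r s) →
        IsPEl p ((l.map fun c => y c.1 ((c.2.1 : F) * (-t) ^ c.2.2.1 * u ^ c.2.2.2)).prod) ∧
        σ ((l.map fun c => y c.1 ((c.2.1 : F) * (-t) ^ c.2.2.1 * u ^ c.2.2.2)).prod) ∈ Q := by
      intro l hl
      induction l with
      | nil => exact ⟨⟨0, by simp⟩, by simp⟩
      | cons c l ih =>
        rw [List.map_cons, List.prod_cons]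
        exact hmul (hm c.1 (Or.inr (Or.inr ⟨c, hl c List.mem_cons_self, rfl⟩)) _)
          (ih fun d hd => hl d (List.mem_cons_of_mem _ hd))
    refine eq_of_isPEl σ hc hno (hmul (hmul hinv (hm s (Or.inr (Or.inl rfl)) u))
      (hm r (Or.inl rfl) t)).1 ?_ ?_
    · simp only [ChevalleyDatum.commWord, List.map_map, Function.comp_def]
      exact (hmul (hm s (Or.inr (Or.inl rfl)) u) (hword _ fun _ h => h)).1
    · simp only [map_mul, map_inv, map_list_prod, List.map_map, Function.comp_def, hy1]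
      exact T.comm r hr s hs' h1 h2 t u

end CfsgLib.ChevSteinberg
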