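import Mathlib
import Cfsg.Agent.ChevSteinberg.Presented
import Cfsg.Agent.Schur.CentralCommutator

/-!
Lifting homomorphisms from the cover to central extensions: it suffices that central extensions
of the Chevalley group carry Steinberg's relations (R1), (R2).
-/

set_option autoImplicit false

open scoped commutatorElement

namespace CfsgLib.ChevSteinberg

open Cfsg.Lie CfsgLib.Chevalley

/-- Homomorphisms from a perfect group agreeing modulo the centre are equal. -/
theorem hom_eq_of_central {A H : Type*} [Group A] [Group H] (hA : commutator A = ⊤) (f g : A →* H)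
    (h : ∀ x, f x * (g x)⁻¹ ∈ Subgroup.center H) : f = g := by
  refine MonoidHom.ext fun x => ?_
  have hx : x ∈ f.eqLocus g := by
    have hle : commutator A ≤ f.eqLocus g := by
      rw [commutator_def, Subgroup.commutator_le]
      intro a _ b _
      show f ⁅a, b⁆ = g ⁅a, b⁆
      rw [map_commutatorElement, map_commutatorElement]
      exact Schur.commutator_congr (σ := QuotientGroup.mk' (Subgroup.center H))
        (QuotientGroup.ker_mk' _).le
        (QuotientGroup.eq_iff_div_mem.2 (by rw [div_eq_mul_inv]; exact h a))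
        (QuotientGroup.eq_iff_div_mem.2 (by rw [div_eq_mul_inv]; exact h b))
    exact hle (hA ▸ Subgroup.mem_top x)
  exact hx

variable {D : ChevalleyDatum} {S : Sys D} {F : Type*} [Field F]

/-- The homomorphism from the cover given by a system. -/
theorem exists_hom_cover {Γ : Type*} [Group Γ] (T : StSys S F Γ) :
    ∃ f : D.SteinbergCover F →* Γ, ∀ r t, f (D.scGen F r t) = T.y r t := by
  have hx : ∀ (r : ℕ) (t : F), FreeGroup.lift (fun g : Fin D.nroots × F => T.y g.1 g.2)
      (D.stX r t) = T.y r t := by
    intro r t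
    rw [ChevalleyDatum.stX]
    split_ifs with hr
    · rw [FreeGroup.lift_apply_of]
    · rw [map_one, T.out r hr]
  have h : ∀ g ∈ D.steinbergRelsAB F,
      FreeGroup.lift (fun g : Fin D.nroots × F => T.y g.1 g.2) g = 1 := by
    rintro g (⟨r, t₁, t₂, -, rfl⟩ | ⟨r, s, t, u, hr, hs, h1, h2, rfl⟩)
    · simp only [map_mul, map_inv, hx, T.add, mul_inv_cancel]
    · simp only [map_mul, map_inv, hx, ChevalleyDatum.stWord, map_list_prod, List.map_map,
        Function.comp_def]
      rw [mul_inv_eq_one]
      calc (T.y s u)⁻¹ * (T.y r t)⁻¹ * T.y s u * T.y r t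
          = (T.y s u)⁻¹ * ((T.y r t)⁻¹ * T.y s u * T.y r t) := by group
        _ = _ := by rw [T.comm r hr s hs h1 h2, inv_mul_cancel_left]
  refine ⟨PresentedGroup.toGroup h, fun r t => ?_⟩
  exact hx r t

/-- The projection of the cover is onto with central kernel. -/
theorem coverProj_ker_central (W : Witness S) :
    (coverSys S F).θ.ker ≤ Subgroup.center (D.SteinbergCover F) := fun z hz =>
  ((coverSys S F).ker_le W (cover_gen S F) z hz).1

theorem coverSys_range : (coverSys S F).θ.range = D.group F := by
  show ((D.group F).subtype.comp (coverProj S F)).range = _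
  rw [MonoidHom.range_comp, MonoidHom.range_eq_top.2 (proj_surjective S F _ (D.scGen F)
    (coverProj_gen S F)), ← MonoidHom.range_eq_map, Subgroup.range_subtype]

universe w v

variable {F : Type v} [Field F]

/-- Homomorphisms from the cover lift uniquely to central extensions, if central extensions of the
Chevalley group carry the relations. -/
theorem existsUnique_lift (W : Witness S) (hperf : commutator (D.SteinbergCover F) = ⊤)
    (hst : ∀ {Γ : Type (max v w)} [Group Γ] (π : Γ →* GL D.Idx F), π.range = D.group F →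
      π.ker ≤ Subgroup.center Γ → ∃ T : StSys S F Γ, T.θ = π)
    {G₁ : Type*} {E : Type w} [Group G₁] [Group E] (π₁ : E →* G₁)
    (hπ : Function.Surjective π₁) (hc : π₁.ker ≤ Subgroup.center E)
    (σ : D.SteinbergCover F →* G₁) : ∃! τ : D.SteinbergCover F →* E, π₁.comp τ = σ := by
  set Δ := D.SteinbergCover F
  let P : Subgroup (Δ × E) := (σ.comp (MonoidHom.fst Δ E)).eqLocus (π₁.comp (MonoidHom.snd Δ E))
  let p₁ : P →* Δ := (MonoidHom.fst Δ E).comp P.subtype
  let p₂ : P →* E := (MonoidHom.snd Δ E).comp P.subtype
  have heq : ∀ x : P, σ (p₁ x) = π₁ (p₂ x) := fun x => x.2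
  have hsurj : Function.Surjective p₁ := fun d => by
    obtain ⟨e, he⟩ := hπ (σ d)
    exact ⟨⟨(d, e), he.symm⟩, rfl⟩
  have hk1 : p₁.ker ≤ Subgroup.center P := by
    intro x hx
    have h2 : p₂ x ∈ Subgroup.center E := hc (by
      rw [MonoidHom.mem_ker, ← heq, MonoidHom.mem_ker.1 hx, map_one])
    refine Subgroup.mem_center_iff.2 fun y => Subtype.ext (Prod.ext ?_ ?_)
    · show p₁ y * p₁ x = p₁ x * p₁ y
      rw [MonoidHom.mem_ker.1 hx, mul_one, one_mul]
    · exact Subgroup.mem_center_iff.1 h2 (p₂ y)
  let π : P →* GL D.Idx F := (coverSys S F).θ.comp p₁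
  have hrange : π.range = D.group F := by
    rw [MonoidHom.range_comp, MonoidHom.range_eq_top.2 hsurj, ← MonoidHom.range_eq_map,
      coverSys_range]
  have hker : π.ker ≤ Subgroup.center P := by
    intro x hx
    have hz : p₁ x ∈ Subgroup.center Δ := coverProj_ker_central W hx
    have hC : commutator P ≤ Subgroup.centralizer {x} := by
      rw [commutator_def, Subgroup.commutator_le]
      intro a _ b _
      rw [Subgroup.mem_centralizer_singleton_iff]
      have hfix : ∀ a, p₁ (x * a * x⁻¹) = p₁ a := fun a => by
        rw [map_mul, map_mul, map_inv, ← Subgroup.mem_center_iff.1 hz, mul_inv_cancel_right]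
      have := Schur.commutator_congr (σ := p₁) hk1 (hfix a) (hfix b)
      rw [← conjugate_commutatorElement, mul_inv_eq_iff_eq_mul] at this
      exact this.symm
    refine Subgroup.mem_center_iff.2 fun y => ?_
    have hy : p₁ y ∈ (commutator P).map p₁ := by
      rw [commutator_def, Subgroup.map_commutator, Subgroup.map_top_of_surjective _ hsurj,
        ← commutator_def, hperf]
      exact Subgroup.mem_top _
    obtain ⟨q, hq, e⟩ := hy
    have hqx : Commute q x := Subgroup.mem_centralizer_singleton_iff.1 (hC hq)
    have hkx : Commute (q⁻¹ * y) x := (Subgroup.mem_center_iff.1 (hk1 (by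
      rw [MonoidHom.mem_ker, map_mul, map_inv, e, inv_mul_cancel])) x).symm
    have := (hqx.mul_left hkx).eq
    rwa [mul_inv_cancel_left] at this
  obtain ⟨T, hT⟩ := hst π hrange hker
  obtain ⟨f, hf⟩ := exists_hom_cover T
  have hid : p₁.comp f = MonoidHom.id Δ := by
    refine hom_eq_of_central hperf _ _ fun x => coverProj_ker_central W ?_
    have e : π.comp f = (coverSys S F).θ := by
      refine PresentedGroup.ext fun g => ?_
      have eg : (PresentedGroup.of g : Δ) = D.scGen F g.1 g.2 := by
        simp [ChevalleyDatum.scGen, ChevalleyDatum.stX, PresentedGroup.of]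
      rw [MonoidHom.comp_apply, eg, hf, ← hT, T.θ_y]
      exact ((coverSys S F).θ_y g.1 g.2).symm
    rw [MonoidHom.mem_ker, map_mul, map_inv, MonoidHom.id_apply,
      show (coverSys S F).θ ((p₁.comp f) x) = (π.comp f) x from rfl, e, mul_inv_cancel]
  refine ⟨p₂.comp f, ?_, fun τ hτ => ?_⟩
  · refine MonoidHom.ext fun x => ?_
    rw [MonoidHom.comp_apply, MonoidHom.comp_apply, ← heq, ← MonoidHom.comp_apply p₁ f, hid,
      MonoidHom.id_apply]
  · refine hom_eq_of_central hperf _ _ fun x => hc ?_
    have h1 := DFunLike.congr_fun hτ x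
    rw [MonoidHom.comp_apply] at h1
    rw [MonoidHom.mem_ker, map_mul, map_inv, h1, MonoidHom.comp_apply, ← heq,
      ← MonoidHom.comp_apply p₁ f, hid, MonoidHom.id_apply, mul_inv_cancel]

end CfsgLib.ChevSteinberg
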