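import Mathlib
import Cfsg.Agent.ChevSteinberg.PLift
import Cfsg.Agent.ChevSteinberg.Universal
import Cfsg.Agent.ChevSteinberg.CoverEquiv
import Cfsg.Agent.ChevUniversal.Multiplier
import Cfsg.Agent.SchurMult.Central

/-!
Over a finite field of characteristic `p`, homomorphisms from the cover lift uniquely to central
extensions whose kernel has no element of order `p`.
-/

set_option autoImplicit false

namespace CfsgLib.ChevSteinberg

open Cfsg.Lie CfsgLib.Chevalley

variable {D : ChevalleyDatum} {S : Sys D} {F : Type*} [Field F]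

theorem finite_cover [Finite F] (W : Witness S) : Finite (D.SteinbergCover F) := by
  obtain ⟨e, -⟩ := exists_coverEquiv S F W
  have := ChevUniversal.finite_steinbergGroup (F := F) W
  exact Finite.of_equiv _ e.symm.toEquiv

/-- Unique lifting to central extensions without elements of order `p` in the kernel. -/
theorem existsUnique_lift_finite [Finite F] (W : Witness S)
    (hperf : commutator (D.SteinbergCover F) = ⊤) {p : ℕ} [Fact p.Prime] [CharP F p]
    {G₁ : Type*} {E : Type*} [Group G₁] [Group E] (π₁ : E →* G₁)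
    (hπ : Function.Surjective π₁) (hc : π₁.ker ≤ Subgroup.center E)
    (hno : ∀ z ∈ π₁.ker, z ^ p = 1 → z = 1)
    (σ : D.SteinbergCover F →* G₁) : ∃! τ : D.SteinbergCover F →* E, π₁.comp τ = σ := by
  set Δ := D.SteinbergCover F
  have hfin : Finite Δ := finite_cover W
  let P : Subgroup (Δ × E) := (σ.comp (MonoidHom.fst Δ E)).eqLocus (π₁.comp (MonoidHom.snd Δ E))
  let p₁ : P →* Δ := (MonoidHom.fst Δ E).comp P.subtype
  let p₂ : P →* E := (MonoidHom.snd Δ E).comp P.subtype
  have heq : ∀ x : P, σ (p₁ x) = π₁ (p₂ x) := fun x => x.2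
  have hsurj : Function.Surjective p₁ := fun d => by
    obtain ⟨e, he⟩ := hπ (σ d)
    exact ⟨⟨(d, e), he.symm⟩, rfl⟩
  have hker2 : ∀ x, p₁ x = 1 → p₂ x ∈ π₁.ker := fun x hx => by
    rw [MonoidHom.mem_ker, ← heq, hx, map_one]
  have hk1 : p₁.ker ≤ Subgroup.center P := by
    intro x hx
    have h2 : p₂ x ∈ Subgroup.center E := hc (hker2 x hx)
    refine Subgroup.mem_center_iff.2 fun y => Subtype.ext (Prod.ext ?_ ?_)
    · show p₁ y * p₁ x = p₁ x * p₁ y
      rw [MonoidHom.mem_ker.1 hx, mul_one, one_mul]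
    · exact Subgroup.mem_center_iff.1 h2 (p₂ y)
  have hfinC : Finite (commutator P) := SchurMult.finite_commutator_of_central p₁ hk1
  let q₁ : commutator P →* Δ := p₁.comp (commutator P).subtype
  have hqs : Function.Surjective q₁ := by
    intro d
    have : d ∈ (commutator P).map p₁ := by
      rw [commutator_def, Subgroup.map_commutator, Subgroup.map_top_of_surjective _ hsurj,
        ← commutator_def, hperf]
      exact Subgroup.mem_top _
    obtain ⟨q, hq, e⟩ := this
    exact ⟨⟨q, hq⟩, e⟩
  have hqc : q₁.ker ≤ Subgroup.center (commutator P) := fun x hx =>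
    Subgroup.mem_center_iff.2 fun y => Subtype.ext (Subgroup.mem_center_iff.1 (hk1 hx) y)
  have hqno : ∀ z ∈ q₁.ker, z ^ p = 1 → z = 1 := by
    intro z hz hzp
    have h1 : p₁ z = 1 := hz
    have h2 : p₂ z = 1 := hno _ (hker2 _ h1) (by
      rw [← map_pow, ← Subgroup.coe_pow, hzp, Subgroup.coe_one, map_one])
    exact Subtype.ext (Subtype.ext (Prod.ext h1 h2))
  obtain ⟨T', -, hT'⟩ := (coverSys S F).exists_lift_of_coprime (p := p) q₁ hqs hqc hqno
  obtain ⟨f, hf⟩ := exists_hom_cover T'
  have hid : q₁.comp f = MonoidHom.id Δ := by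
    refine PresentedGroup.ext fun g => ?_
    have eg : (PresentedGroup.of g : Δ) = D.scGen F g.1 g.2 := by
      simp [ChevalleyDatum.scGen, ChevalleyDatum.stX, PresentedGroup.of]
    rw [MonoidHom.comp_apply, eg, hf, hT']
    rfl
  let q₂ : commutator P →* E := p₂.comp (commutator P).subtype
  have hq : ∀ x, π₁ (q₂ x) = σ (q₁ x) := fun x => (heq x).symm
  refine ⟨q₂.comp f, ?_, fun τ hτ => ?_⟩
  · refine MonoidHom.ext fun x => ?_
    rw [MonoidHom.comp_apply, MonoidHom.comp_apply, hq, ← MonoidHom.comp_apply q₁ f, hid,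
      MonoidHom.id_apply]
  · refine hom_eq_of_central hperf _ _ fun x => hc ?_
    have h1 := DFunLike.congr_fun hτ x
    rw [MonoidHom.comp_apply] at h1
    rw [MonoidHom.mem_ker, map_mul, map_inv, h1, MonoidHom.comp_apply, hq,
      ← MonoidHom.comp_apply q₁ f, hid, MonoidHom.id_apply, mul_inv_cancel]

/-- Central elements of `GL_n` of order dividing the characteristic are trivial. -/
theorem gl_center_no_char {L : Type*} [Field L] {p : ℕ} [Fact p.Prime] [CharP L p] {n : ℕ}
    {z : GL (Fin n) L} (hz : z ∈ Subgroup.center (GL (Fin n) L)) (h : z ^ p = 1) : z = 1 := by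
  rcases isEmpty_or_nonempty (Fin n) with he | hne
  · exact Units.ext (Matrix.ext fun a => isEmptyElim a)
  obtain ⟨c, hc⟩ := Matrix.GeneralLinearGroup.mem_center_iff_val_mem_range_scalar.1 hz
  have h1 : (Matrix.scalar (Fin n)) (c ^ p) = Matrix.scalar (Fin n) 1 := by
    rw [map_pow, hc, ← Units.val_pow_eq_pow_val, h, Units.val_one, map_one]
  have h2 : c ^ p = 1 := Matrix.scalar_inj.1 h1
  have h3 : (c - 1) ^ p = 0 := by rw [sub_pow_char, h2, one_pow, sub_self]
  have h4 : c = 1 := sub_eq_zero.1 (pow_eq_zero_iff (Fact.out : p.Prime).ne_zero |>.1 h3)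
  exact Units.ext (by rw [← hc, h4, map_one, Units.val_one])

end CfsgLib.ChevSteinberg
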