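import Mathlib
import Cfsg.Agent.Chevalley.All
import Cfsg.Agent.ChevSteinberg.Presented

/-!
Groups with Steinberg's relations (R1), (R2) are perfect: each root is the image of a
representative, which is the leading term of a commutator.
-/

set_option autoImplicit false

open scoped commutatorElement

namespace CfsgLib.ChevSteinberg

open Cfsg.Lie CfsgLib.Chevalley

variable {D : ChevalleyDatum}

namespace StSys

variable {S : Sys D} {F : Type*} [Field F] {G : Type*} [Group G]

/-- The image of a root element in the largest abelian quotient. -/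
def ab (T : StSys S F G) (r : ℕ) (t : F) : Abelianization G := Abelianization.of (T.y r t)

theorem ab_add (T : StSys S F G) (r : ℕ) (t u : F) : T.ab r t * T.ab r u = T.ab r (t + u) := by
  rw [ab, ab, ab, ← map_mul, T.add]

theorem ab_word (T : StSys S F G) {r s : ℕ} (hr : r < D.nroots) (hs : s < D.nroots) (h1 : s ≠ r)
    (h2 : s ≠ D.neg r) (t u : F) :
    ((D.commWord F r s t u).map fun p => T.ab p.1 p.2).prod = 1 := by
  have h := congrArg Abelianization.of (T.comm r hr s hs h1 h2 t u)
  rw [map_mul, map_mul, map_mul, map_inv, map_list_prod, List.map_map, mul_comm (_⁻¹),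
    inv_mul_cancel_right, left_eq_mul] at h
  exact h

theorem ab_single (T : StSys S F G) {r s q : ℕ} (hr : r < D.nroots) (hs : s < D.nroots)
    (h1 : s ≠ r) (h2 : s ≠ D.neg r) {c : ℤ} (hc : c = 1 ∨ c = -1)
    (h : D.commTerms r s = [(q, c, 1, 1)]) (v : F) : T.ab q v = 1 := by
  have := T.ab_word hr hs h1 h2 1 (-(c : F) * v)
  simp only [ChevalleyDatum.commWord, h, List.map_cons, List.map_nil, List.prod_cons,
    List.prod_nil, mul_one, pow_one] at this
  rw [← this]
  congr 1
  rcases hc with rfl | rfl <;> simp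

/-- Two terms of bidegrees `(1, 1)`, `(2, 1)`: both vanish once the field has three elements. -/
theorem ab_two_terms (T : StSys S F G) (hF : ∃ x : F, x ≠ 0 ∧ x ≠ 1) {r s p q : ℕ}
    (hr : r < D.nroots) (hs : s < D.nroots) (h1 : s ≠ r) (h2 : s ≠ D.neg r) {a b : ℤ}
    (ha : a = 1 ∨ a = -1) (hb : b = 1 ∨ b = -1)
    (rest : List (ℕ × ℤ × ℕ × ℕ)) (hrest : ∀ e ∈ rest, ∀ v, T.ab e.1 v = 1)
    (h : D.commTerms r s = (p, a, 1, 1) :: (q, b, 2, 1) :: rest) :
    ∀ v, T.ab p v = 1 ∧ T.ab q v = 1 := by
  have hw : ∀ t u : F, T.ab p ((a : F) * (-t) * u) * T.ab q ((b : F) * (-t) ^ 2 * u) = 1 := by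
    intro t u
    have := T.ab_word hr hs h1 h2 t u
    simp only [ChevalleyDatum.commWord, h, List.map_cons, List.prod_cons, pow_one,
      List.map_map] at this
    rw [List.prod_eq_one (l := rest.map _) (fun x hx => ?_), mul_one] at this
    · exact this
    · obtain ⟨e, he, rfl⟩ := List.mem_map.1 hx
      exact hrest e he _
  have ha' : (a : F) * a = 1 := by rcases ha with rfl | rfl <;> simp
  have hb' : (b : F) * b = 1 := by rcases hb with rfl | rfl <;> simp
  have hzero : ∀ k, T.ab k 0 = 1 := fun k => by simpa using T.ab_add k 0 0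
  have hq : ∀ v, T.ab q v = 1 := by
    intro v
    obtain ⟨x, hx0, hx1⟩ := hF
    have hd : x - 1 ≠ 0 := sub_ne_zero.2 hx1
    set u : F := (b : F) * v / (x * (x - 1)) with hu
    have e1 := hw x u
    have e2 := hw 1 (x * u)
    rw [show (a : F) * -1 * (x * u) = (a : F) * -x * u by ring] at e2
    have e3 : T.ab q ((b : F) * (-x) ^ 2 * u) = T.ab q ((b : F) * (-1) ^ 2 * (x * u)) :=
      mul_left_cancel (e1.trans e2.symm)
    rw [show (b : F) * (-x) ^ 2 * u = (b : F) * (-1) ^ 2 * (x * u) + v by
      rw [hu]; field_simp; linear_combination (x - 1) * v * hb', ← T.ab_add, mul_eq_left] at e3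
    exact e3
  refine fun v => ⟨?_, hq v⟩
  have := hw (-((a : F) * v)) 1
  rw [hq, mul_one] at this
  rw [← this]
  congr 1
  linear_combination (-v) * ha'

/-- It suffices that the representative roots vanish in every system on the group. -/
theorem commutator_eq_top (T : StSys S F G)
    (hgen : Subgroup.closure {g | ∃ r < D.nroots, ∃ t, g = T.y r t} = ⊤)
    (h : ∀ T' : StSys S F G, ∀ q ∈ S.tops, ∀ v, T'.ab q v = 1) : commutator G = ⊤ := by
  rw [eq_top_iff, ← hgen, Subgroup.closure_le]
  rintro _ ⟨r, hr, t, rfl⟩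
  obtain ⟨L, q, hq, e⟩ := exists_word_top S r hr
  obtain ⟨v, hv⟩ := T.mem_twistL L q t
  rw [e] at hv
  have := h (twistL L T) q hq v
  rw [ab, ← hv] at this
  exact (Abelianization.ker_of G).le this

theorem ab_tops_G2 (T : StSys (sysG2) F G) (hF : ∃ x : F, x ≠ 0 ∧ x ≠ 1) :
    ∀ q ∈ sysG2.tops, ∀ v, T.ab q v = 1 := by
  have h11 : ∀ (T : StSys (sysG2) F G) v, T.ab 11 v = 1 := fun T v =>
    T.ab_single (r := 6) (s := 10) (by decide) (by decide) (by decide) (by decide) (Or.inl rfl)
      (by decide +kernel) v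
  have h10 : ∀ v, T.ab 10 v = 1 := by
    intro v
    obtain ⟨w, hw⟩ := T.mem_twistL [(⟨1, by decide⟩ : Fin chevG2.rank)] ⟨11, by decide⟩ v
    rw [show (sysG2.wperm [(⟨1, by decide⟩ : Fin chevG2.rank)] ⟨11, by decide⟩ : ℕ) = 10 by
      rw [sysG2.wperm_cons, Equiv.Perm.mul_apply, sysG2.srefl_val]
      simp only [Sys.wperm, List.map_nil, List.prod_nil, Equiv.Perm.one_apply]
      decide +kernel] at hw
    have := h11 (twistL [(⟨1, by decide⟩ : Fin chevG2.rank)] T) w
    rw [ab, ← hw] at this
    exact this
  intro q hq v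
  replace hq : q ∈ [9, 11] := hq
  simp only [List.mem_cons, List.not_mem_nil, or_false] at hq
  rcases hq with rfl | rfl
  · refine (T.ab_two_terms hF (r := 7) (s := 6) (p := 8) (a := -1) (b := 1) (by decide) (by decide)
      (by decide) (by decide) (Or.inr rfl) (Or.inl rfl) [(10, 1, 3, 1), (11, 1, 3, 2)]
      (fun e he w => ?_) (by decide +kernel) v).2
    simp only [List.mem_cons, List.not_mem_nil, or_false] at he
    rcases he with rfl | rfl
    · exact h10 w
    · exact h11 T w
  · exact h11 T v

theorem ab_tops_B2 (T : StSys (sysB2) F G) (hF : ∃ x : F, x ≠ 0 ∧ x ≠ 1) :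
    ∀ q ∈ sysB2.tops, ∀ v, T.ab q v = 1 := by
  intro q hq v
  replace hq : q ∈ [6, 7] := hq
  have h := T.ab_two_terms hF (r := 5) (s := 4) (p := 6) (q := 7) (a := -1) (b := -1) (by decide)
    (by decide) (by decide) (by decide) (Or.inr rfl) (Or.inr rfl) [] (by simp) (by decide +kernel) v
  simp only [List.mem_cons, List.not_mem_nil, or_false] at hq
  rcases hq with rfl | rfl
  exacts [h.1, h.2]

end StSys

/-- Perfectness from vanishing of the representatives, for the seven tabulated data. -/
theorem exists_perfect_data {F : Type*} [Field F]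
    (hD : D ∈ [chevG2, chevB2, chevD4, chevF4, chevE6, chevE7, chevE8])
    (hF : D ∈ [chevB2, chevG2] → ∃ x : F, x ≠ 0 ∧ x ≠ 1) :
    ∃ S : Sys D, ∀ {G : Type*} [Group G] (T : StSys S F G), ∀ q ∈ S.tops, ∀ v, T.ab q v = 1 := by
  simp only [List.mem_cons, List.not_mem_nil, or_false] at hD
  rcases hD with rfl | rfl | rfl | rfl | rfl | rfl | rfl
  · exact ⟨sysG2, fun T => T.ab_tops_G2 (hF (by simp))⟩
  · exact ⟨sysB2, fun T => T.ab_tops_B2 (hF (by simp))⟩
  · refine ⟨sysD4, fun T q hq v => ?_⟩
    replace hq : q ∈ [23] := hq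
    simp only [List.mem_cons, List.not_mem_nil, or_false] at hq
    subst hq
    exact T.ab_single (r := 14) (s := 22) (by decide) (by decide) (by decide) (by decide)
      (Or.inl rfl) (by decide +kernel) v
  · refine ⟨sysF4, fun T q hq v => ?_⟩
    replace hq : q ∈ [44, 47] := hq
    simp only [List.mem_cons, List.not_mem_nil, or_false] at hq
    rcases hq with rfl | rfl
    · exact T.ab_single (r := 33) (s := 40) (by decide) (by decide) (by decide) (by decide)
        (Or.inl rfl) (by decide +kernel) v
    · exact T.ab_single (r := 24) (s := 46) (by decide) (by decide) (by decide) (by decide)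
        (Or.inl rfl) (by decide +kernel) v
  · refine ⟨sysE6, fun T q hq v => ?_⟩
    replace hq : q ∈ [71] := hq
    simp only [List.mem_cons, List.not_mem_nil, or_false] at hq
    subst hq
    exact T.ab_single (r := 46) (s := 70) (by decide) (by decide) (by decide) (by decide)
      (Or.inl rfl) (by decide +kernel) v
  · refine ⟨sysE7, fun T q hq v => ?_⟩
    replace hq : q ∈ [125] := hq
    simp only [List.mem_cons, List.not_mem_nil, or_false] at hq
    subst hq
    exact T.ab_single (r := 93) (s := 124) (by decide +kernel) (by decide +kernel)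
      (by decide) (by decide +kernel)
      (Or.inl rfl) (by decide +kernel) v
  · refine ⟨sysE8, fun T q hq v => ?_⟩
    replace hq : q ∈ [239] := hq
    simp only [List.mem_cons, List.not_mem_nil, or_false] at hq
    subst hq
    exact T.ab_single (r := 120) (s := 238) (by decide +kernel) (by decide +kernel)
      (by decide) (by decide +kernel)
      (Or.inl rfl) (by decide +kernel) v

/-- The cover is perfect. -/
theorem commutator_cover_eq_top {F : Type*} [Field F]
    (hD : D ∈ [chevG2, chevB2, chevD4, chevF4, chevE6, chevE7, chevE8])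
    (hF : D ∈ [chevB2, chevG2] → ∃ x : F, x ≠ 0 ∧ x ≠ 1) :
    commutator (D.SteinbergCover F) = ⊤ := by
  obtain ⟨S, h⟩ := exists_perfect_data hD hF
  exact (coverSys S F).commutator_eq_top (cover_gen S F) fun T => h T

end CfsgLib.ChevSteinberg
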