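import Mathlib
import Cfsg.Agent.ChevSteinberg.CoverEquiv
import Cfsg.Agent.ChevUniversal.Multiplier
import Cfsg.Agent.SchurMult.Multiplier
import Cfsg.Agent.SteinbergSL.PSL

/-!
The group presented by Steinberg's relations has trivial multiplier if the cover lifts to its
finite central extensions.
-/

set_option autoImplicit false

namespace CfsgLib.ChevSteinberg

open Cfsg.Lie CfsgLib.Chevalley

universe v

variable {D : ChevalleyDatum} {S : Sys D} {F : Type v} [Field F]

theorem trivialMult_of_lift [Finite F] (W : Witness S)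
    (hlift : ∀ (E : Type v) [Group E] [Finite E] (π₁ : E →* D.SteinbergGroup F),
      Function.Surjective π₁ → π₁.ker ≤ Subgroup.center E → π₁.ker ≤ commutator E →
        ∀ σ : D.SteinbergCover F →* D.SteinbergGroup F,
          ∃ τ : D.SteinbergCover F →* E, π₁.comp τ = σ) :
    Cfsg.HasCyclicSchurMultiplier (D.SteinbergGroup F) 1 := by
  have := ChevUniversal.finite_steinbergGroup (F := F) W
  rw [SchurMult.hasCyclicSchurMultiplier_one_iff]
  intro Γ _ _ σ hσ
  obtain ⟨e, -⟩ := exists_coverEquiv S F W
  obtain ⟨τ, hτ⟩ := hlift Γ σ hσ.1 hσ.2.1 hσ.2.2 e.toMonoidHom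
  have hK : τ.range.map σ = ⊤ := by
    rw [← MonoidHom.range_comp, hτ]
    exact MonoidHom.range_eq_top.2 e.surjective
  have hle := SteinbergSL.commutator_le_of_map_eq_top hσ.2.1 hK
  rw [eq_bot_iff]
  intro z hz
  obtain ⟨x, rfl⟩ := hle (hσ.2.2 hz)
  have hx : e x = 1 := by
    rw [show e x = (σ.comp τ) x by rw [hτ]; rfl]
    exact hz
  rw [Subgroup.mem_bot, e.map_eq_one_iff.1 hx, map_one]

/-- A perfect quotient of a central extension by a part of the derived subgroup is perfect. -/
theorem perfect_of_stem {Γ G : Type*} [Group Γ] [Group G] (σ : Γ →* G)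
    (hs : Function.Surjective σ) (hd : σ.ker ≤ commutator Γ) (hG : commutator G = ⊤) :
    commutator Γ = ⊤ := by
  rw [eq_top_iff]
  intro g _
  have hg : σ g ∈ (commutator Γ).map σ := by
    rw [commutator_def, Subgroup.map_commutator, Subgroup.map_top_of_surjective _ hs,
      ← commutator_def, hG]
    exact Subgroup.mem_top _
  obtain ⟨k, hk, e⟩ := hg
  have hm : k⁻¹ * g ∈ commutator Γ :=
    hd (by rw [MonoidHom.mem_ker, map_mul, map_inv, e, inv_mul_cancel])
  simpa using mul_mem hk hm

/-- In a perfect central extension the preimage of the centre is central. -/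
theorem center_preimage_le {Γ G : Type*} [Group Γ] [Group G] (σ : Γ →* G)
    (hc : σ.ker ≤ Subgroup.center Γ) (hperf : commutator Γ = ⊤) {x : Γ}
    (hx : σ x ∈ Subgroup.center G) : x ∈ Subgroup.center Γ := by
  have hfix : ∀ a, σ (x * a * x⁻¹) = σ a := fun a => by
    rw [map_mul, map_mul, map_inv, ← Subgroup.mem_center_iff.1 hx, mul_inv_cancel_right]
  have hC : commutator Γ ≤ Subgroup.centralizer {x} := by
    rw [commutator_def, Subgroup.commutator_le]
    intro a _ b _
    rw [Subgroup.mem_centralizer_singleton_iff]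
    have := Schur.commutator_congr (σ := σ) hc (hfix a) (hfix b)
    rw [← conjugate_commutatorElement, mul_inv_eq_iff_eq_mul] at this
    exact this.symm
  rw [hperf, top_le_iff] at hC
  exact Subgroup.mem_center_iff.2 fun y =>
    Subgroup.mem_centralizer_singleton_iff.1 (hC ▸ Subgroup.mem_top y)

end CfsgLib.ChevSteinberg
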